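import Cfsg.Agent.H72.NGT

/-!
Definitions for the amalgam analysis of quasithin groups of even characteristic whose 2-local
subgroups over a Sylow 2-subgroup are solvable (project QA).
-/

set_option autoImplicit false

namespace Cfsg.Agent.H71.QA

open Cfsg Cfsg.Agent.H98 Cfsg.Agent.H84 Cfsg.Agent.H71.NG Cfsg.Agent.H72.NG Subgroup
open scoped commutatorElement

variable {G : Type*} [Group G]

/-- `T` is a Sylow 2-subgroup, the 2-local subgroups over `T` have characteristic 2, and all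
2-local subgroups have 3-rank at most 2. -/
structure EC (T : Subgroup G) : Prop where
  syl : SylIn 2 T ⊤
  ch : ∀ N : Subgroup G, IsTwoLocal N → T ≤ N → Ch2 N
  qt : ∀ N : Subgroup G, IsTwoLocal N → PRankLE 3 2 N

/-- Moreover the 2-local subgroups over `T` are solvable. -/
structure HA (T : Subgroup G) : Prop extends EC T where
  solv : ∀ N : Subgroup G, IsTwoLocal N → T ≤ N → Group.IsSolvable N

/-- `Z_P = ⟨Ω₁ Z(T) : T ∈ Syl₂(P)⟩`. -/
def Zv (P : Subgroup G) : Subgroup G := ⨆ T : Subgroup G, ⨆ _ : SylIn 2 T P, om T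

/-- The lines of a vertex: four-groups in `Z_P` on which `O²(P)` acts nontrivially. -/
def Ln (P W : Subgroup G) : Prop :=
  W ≤ Zv P ∧ Nat.card W = 4 ∧ resOf 2 P ≤ normalizer (W : Set G) ∧
    ¬ resOf 2 P ≤ centralizer (W : Set G)

/-- The component of a line: `O²` of the centralizer of the other lines. -/
def Cp (P W : Subgroup G) : Subgroup G :=
  resOf 2 (P ⊓ ⨅ W' : Subgroup G, ⨅ _ : Ln P W' ∧ W' ≠ W, centralizer (W' : Set G))

/-- A vertex: `P / O₂(P)` is `S₃` or `S₃ ≀ 2`, and `Z_P` is the product of `Ω₁ Z(P)` and the (one or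
two) lines. -/
structure Vx (P : Subgroup G) : Prop where
  ea : IsElementaryAbelian 2 (Zv P)
  le : Zv P ≤ pCoreOf 2 P
  cent : pCoreOf 2 P ≤ centralizer (Zv P : Set G)
  ex : ∃ W : Subgroup G, Ln P W
  two : ∀ W₁ W₂ W₃ : Subgroup G, Ln P W₁ → Ln P W₂ → Ln P W₃ → W₁ = W₂ ∨ W₁ = W₃ ∨ W₂ = W₃
  disj : ∀ W W' : Subgroup G, Ln P W → Ln P W' → W ≠ W' → W ⊓ W' = ⊥
  gen : Zv P ≤ (⨆ W : Subgroup G, ⨆ _ : Ln P W, W) ⊔ (Zv P ⊓ centralizer (P : Set G))
  faith : ∀ g ∈ P, (∀ W : Subgroup G, Ln P W → g ∈ centralizer (W : Set G)) → g ∈ pCoreOf 2 P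
  c3 : ∀ W : Subgroup G, Ln P W → C3 (Cp P W)
  res : resOf 2 P ≤ ⨆ W : Subgroup G, ⨆ _ : Ln P W, Cp P W
  O_res : pCoreOf 2 (resOf 2 P) ≤ ⨆ W : Subgroup G, ⨆ _ : Ln P W, pCoreOf 2 (Cp P W)
  dc : ∀ T W : Subgroup G, SylIn 2 T P → Ln P W →
    DC (Bm T) (Cp P W) ∧ lineOf (Bm T) (Cp P W) = W
  trans : ∀ T W W' : Subgroup G, SylIn 2 T P → Ln P W → Ln P W' → ∃ t ∈ T, cj t W = W'
  stab : ∀ T : Subgroup G, SylIn 2 T P → ∀ g ∈ P,
    (∀ W : Subgroup G, Ln P W → g ∈ centralizer ((W ⊓ om (JJ T) : Subgroup G) : Set G)) → g ∈ T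

/-- An edge: two vertices with a common Sylow 2-subgroup `P ∩ P'` and no common normal
2-subgroup. -/
structure Ed (P P' : Subgroup G) : Prop where
  v : Vx P
  v' : Vx P'
  syl : SylIn 2 (P ⊓ P') P
  syl' : SylIn 2 (P ⊓ P') P'
  free : ∀ X : Subgroup G, IsPGroup 2 X → P ≤ normalizer (X : Set G) →
    P' ≤ normalizer (X : Set G) → X = ⊥
  R : ¬ pCoreOf 2 (resOf 2 P) ≤ pCoreOf 2 P'
  R' : ¬ pCoreOf 2 (resOf 2 P') ≤ pCoreOf 2 P

/-- The end configuration with one component on each side: `T = W W' × E`, `|E| ≤ 2`. -/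
structure End1 (T K L : Subgroup G) : Prop where
  pg : IsPGroup 2 T
  aK : A4 K
  aL : A4 L
  nK : T ≤ normalizer (K : Set G)
  nL : T ≤ normalizer (L : Set G)
  wK : pCoreOf 2 K ≤ T
  wL : pCoreOf 2 L ≤ T
  ne : ⁅pCoreOf 2 K, pCoreOf 2 L⁆ ≠ ⊥
  free : T ⊓ centralizer (K : Set G) ⊓ centralizer (L : Set G) = ⊥

/-- The end configuration with two components `K, K^t` and `L, L^t` on each side; `T₀ = N_T(K)`
has index 2 in `T`. -/
structure End2 (T K L : Subgroup G) (t : G) : Prop where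
  pg : IsPGroup 2 T
  aK : A4 K
  aL : A4 L
  t_mem : t ∈ T
  t_not : t ∉ normalizer (K : Set G)
  idx : ∀ s ∈ T, s ∈ normalizer (K : Set G) ∨ s * t⁻¹ ∈ normalizer (K : Set G)
  nL : T ⊓ normalizer (K : Set G) = T ⊓ normalizer (L : Set G)
  wK : pCoreOf 2 K ≤ T
  wL : pCoreOf 2 L ≤ T
  ne : ⁅pCoreOf 2 K, pCoreOf 2 L⁆ ≠ ⊥
  cK : K ≤ centralizer (cj t K : Set G)
  cL : L ≤ centralizer (cj t L : Set G)
  cKL : pCoreOf 2 K ≤ centralizer (cj t (pCoreOf 2 L) : Set G)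
  free : T ⊓ centralizer ((K ⊔ cj t K : Subgroup G) : Set G) ⊓
    centralizer ((L ⊔ cj t L : Subgroup G) : Set G) = ⊥

/-- `T` is a Sylow 2-subgroup of `(K D × (K D)^t) ⟨t⟩ ≅ S₄ ≀ 2`, where `K ≅ A₄`, `D ≅ D₈`,
`K D ≅ S₄`. -/
structure SW (T K D : Subgroup G) (t : G) : Prop where
  aK : A4 K
  pg : IsPGroup 2 D
  card : Nat.card D = 8
  wK : pCoreOf 2 K ≤ D
  nK : D ≤ normalizer (K : Set G)
  act : ¬ D ≤ centralizer (pCoreOf 2 K : Set G)
  tt : t * t = 1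
  comm : K ⊔ D ≤ centralizer (cj t (K ⊔ D) : Set G)
  disj : D ⊓ cj t D = ⊥
  eq : T = D ⊔ cj t D ⊔ zpowers t

/-! ### Conjugation -/

theorem cj_inv_cj (g : G) (X : Subgroup G) : cj g⁻¹ (cj g X) = X := by
  rw [cj_cj, inv_mul_cancel]
  ext x
  simp

theorem cj_cj_inv (g : G) (X : Subgroup G) : cj g (cj g⁻¹ X) = X := by
  simpa using cj_inv_cj g⁻¹ X

theorem cj_inj {g : G} {X Y : Subgroup G} (h : cj g X = cj g Y) : X = Y := by
  rw [← cj_inv_cj g X, h, cj_inv_cj]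

theorem cj_inf (g : G) (X Y : Subgroup G) : cj g (X ⊓ Y) = cj g X ⊓ cj g Y :=
  map_inf _ _ _ (MulAut.conj g).injective

theorem cj_centralizer (g : G) (X : Subgroup G) :
    cj g (centralizer (X : Set G)) = centralizer (cj g X : Set G) := map_conj_centralizer g X

theorem cj_normalizer (g : G) (X : Subgroup G) :
    cj g (normalizer (X : Set G)) = normalizer (cj g X : Set G) := map_conj_normalizer g X

theorem mem_cj {g x : G} {X : Subgroup G} : x ∈ cj g X ↔ g⁻¹ * x * g ∈ X := by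
  constructor
  · rintro ⟨y, hy, rfl⟩
    simpa [mul_assoc] using hy
  · intro h
    exact ⟨_, h, by simp [mul_assoc]⟩

theorem cj_Zv_le (g : G) (P : Subgroup G) : cj g (Zv P) ≤ Zv (cj g P) := by
  unfold Zv
  rw [cj, Subgroup.map_iSup]
  refine iSup_le fun T => ?_
  rw [Subgroup.map_iSup]
  refine iSup_le fun hT => ?_
  rw [show (om T).map (MulAut.conj g).toMonoidHom = om (cj g T) from H72.NG.cj_om g T]
  exact le_iSup₂_of_le (f := fun T (_ : SylIn 2 T (cj g P)) => om T) (cj g T) (hT.map_conj g) le_rfl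

theorem cj_Zv (g : G) (P : Subgroup G) : cj g (Zv P) = Zv (cj g P) := by
  refine le_antisymm (cj_Zv_le g P) ?_
  have := cj_mono (g := g) (cj_Zv_le g⁻¹ (cj g P))
  rwa [cj_cj_inv, cj_inv_cj] at this

theorem om_le_Zv {T P : Subgroup G} (h : SylIn 2 T P) : om T ≤ Zv P :=
  le_iSup₂_of_le (f := fun T (_ : SylIn 2 T P) => om T) T h le_rfl

theorem norm_Zv (P : Subgroup G) : normalizer (P : Set G) ≤ normalizer (Zv P : Set G) :=
  fun g hg => mem_normalizer_of_cj_eq (by rw [cj_Zv, cj_eq_of_mem_normalizer hg])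

theorem Ln.cj {P W : Subgroup G} (h : Ln P W) (g : G) : Ln (cj g P) (cj g W) := by
  refine ⟨cj_Zv g P ▸ cj_mono h.1, by rw [card_map_conj, h.2.1], ?_, ?_⟩
  · rw [← cj_resOf]
    exact cj_le_norm h.2.2.1 g
  · rw [← cj_resOf, ← cj_centralizer, cj_le_cj_iff]
    exact h.2.2.2

theorem ln_cj_iff {P W : Subgroup G} {g : G} : Ln (cj g P) (cj g W) ↔ Ln P W :=
  ⟨fun h => by simpa only [cj_inv_cj] using h.cj g⁻¹, fun h => h.cj g⟩

theorem Ln.cj_mem {P W : Subgroup G} (h : Ln P W) {g : G} (hg : g ∈ P) : Ln P (H84.cj g W) := by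
  have := h.cj g
  rwa [cj_eq_of_mem_normalizer (le_normalizer hg)] at this

theorem mem_Cp_inner {P W : Subgroup G} {x : G} :
    x ∈ P ⊓ ⨅ W' : Subgroup G, ⨅ _ : Ln P W' ∧ W' ≠ W, centralizer (W' : Set G) ↔
      x ∈ P ∧ ∀ W' : Subgroup G, Ln P W' → W' ≠ W → x ∈ centralizer (W' : Set G) := by
  simp only [mem_inf, mem_iInf, and_imp]

theorem cj_Cp (g : G) (P W : Subgroup G) : cj g (Cp P W) = Cp (cj g P) (cj g W) := by
  unfold Cp
  rw [cj_resOf]
  congr 1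
  ext x
  rw [mem_cj, mem_Cp_inner, mem_Cp_inner, mem_cj]
  refine and_congr_right fun _ => ⟨fun h W' h1 h2 => ?_, fun h W' h1 h2 => ?_⟩
  · have := h (cj g⁻¹ W') (by simpa only [cj_inv_cj] using h1.cj g⁻¹)
      (fun e => h2 (by rw [← e, cj_cj_inv]))
    rw [← cj_cj_inv g W', ← cj_centralizer, mem_cj]
    exact this
  · have := h (cj g W') (h1.cj g) (fun e => h2 (cj_inj e))
    rwa [← cj_centralizer, mem_cj] at this

theorem Cp_le_res (P W : Subgroup G) : Cp P W ≤ resOf 2 P := resOf_mono inf_le_left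

theorem Cp_le (P W : Subgroup G) : Cp P W ≤ P := (Cp_le_res P W).trans (resOf_le _ _)

theorem Cp_le_cent {P W W' : Subgroup G} (h : Ln P W') (hne : W' ≠ W) :
    Cp P W ≤ centralizer (W' : Set G) :=
  fun _ hx => (mem_Cp_inner.1 (resOf_le _ _ hx)).2 W' h hne

theorem norm_Cp {P W : Subgroup G} {g : G} (hg : g ∈ P) (hW : g ∈ normalizer (W : Set G)) :
    g ∈ normalizer (Cp P W : Set G) :=
  mem_normalizer_of_cj_eq (by
    rw [cj_Cp, cj_eq_of_mem_normalizer (le_normalizer hg), cj_eq_of_mem_normalizer hW])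

theorem cj_iSup_ln (g : G) (P : Subgroup G) (f f' : Subgroup G → Subgroup G)
    (h : ∀ W, cj g (f W) = f' (cj g W)) :
    cj g (⨆ W : Subgroup G, ⨆ _ : Ln P W, f W) =
      ⨆ W : Subgroup G, ⨆ _ : Ln (cj g P) W, f' W := by
  apply le_antisymm
  · rw [cj, Subgroup.map_iSup]
    refine iSup_le fun W => ?_
    rw [Subgroup.map_iSup]
    refine iSup_le fun hW => ?_
    rw [show (f W).map (MulAut.conj g).toMonoidHom = f' (cj g W) from h W]
    exact le_iSup₂_of_le (f := fun W (_ : Ln (cj g P) W) => f' W) (cj g W) (hW.cj g) le_rfl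
  · refine iSup₂_le fun W hW => ?_
    rw [← cj_cj_inv g W, ← h]
    refine cj_mono (le_iSup₂_of_le (f := fun W (_ : Ln P W) => f W) (cj g⁻¹ W) ?_ le_rfl)
    simpa only [cj_inv_cj] using hW.cj g⁻¹

theorem Vx.cj {P : Subgroup G} (v : Vx P) (g : G) : Vx (cj g P) := by
  have back : ∀ {W : Subgroup G}, Ln (H84.cj g P) W → Ln P (H84.cj g⁻¹ W) := fun h => by
    simpa only [cj_inv_cj] using h.cj g⁻¹
  have backS : ∀ {T : Subgroup G}, SylIn 2 T (H84.cj g P) → SylIn 2 (H84.cj g⁻¹ T) P := fun h => by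
    have := h.map_conj g⁻¹
    rwa [show (H84.cj g P).map (MulAut.conj g⁻¹).toMonoidHom = P from cj_inv_cj g P] at this
  refine ⟨?_, ?_, ?_, ?_, ?_, ?_, ?_, ?_, ?_, ?_, ?_, ?_, ?_, ?_⟩
  · rw [← cj_Zv]
    exact H51.isEA_map v.ea _
  · rw [← cj_Zv, ← cj_pCoreOf]
    exact cj_mono v.le
  · rw [← cj_Zv, ← cj_pCoreOf]
    exact cj_le_cent v.cent g
  · obtain ⟨W, hW⟩ := v.ex
    exact ⟨_, hW.cj g⟩
  · intro W₁ W₂ W₃ h₁ h₂ h₃
    rcases v.two _ _ _ (back h₁) (back h₂) (back h₃) with e | e | e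
    · exact Or.inl (cj_inj e)
    · exact Or.inr (Or.inl (cj_inj e))
    · exact Or.inr (Or.inr (cj_inj e))
  · intro W W' h h' hne
    have := v.disj _ _ (back h) (back h') (fun e => hne (cj_inj e))
    rw [← cj_inf] at this
    exact (Subgroup.map_eq_bot_iff_of_injective _ (MulAut.conj g⁻¹).injective).1 this
  · rw [← cj_iSup_ln g P (fun W => W) (fun W => W) (fun _ => rfl), ← cj_Zv, ← cj_centralizer,
      ← cj_inf, ← cj_sup]
    exact cj_mono v.gen
  · intro x hx h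
    rw [← cj_pCoreOf, mem_cj]
    refine v.faith _ (mem_cj.1 hx) fun W hW => ?_
    have := h _ (hW.cj g)
    rwa [← cj_centralizer, mem_cj] at this
  · intro W hW
    rw [← cj_cj_inv g W, ← cj_Cp]
    exact (v.c3 _ (back hW)).cj g
  · rw [← cj_iSup_ln g P (fun W => Cp P W) (fun W => Cp (H84.cj g P) W) (fun W => cj_Cp g P W),
      ← cj_resOf]
    exact cj_mono v.res
  · rw [← cj_iSup_ln g P (fun W => pCoreOf 2 (Cp P W)) (fun W => pCoreOf 2 (Cp (H84.cj g P) W))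
      (fun W => by rw [cj_pCoreOf, cj_Cp]), ← cj_resOf, ← cj_pCoreOf]
    exact cj_mono v.O_res
  · intro T W hT hW
    obtain ⟨h1, h2⟩ := v.dc _ _ (backS hT) (back hW)
    have h3 := dc_cj h1 g
    have h4 := congrArg (H84.cj g) h2
    rw [cj_lineOf] at h4
    rw [H72.NG.cj_Bm, cj_Cp, cj_cj_inv, cj_cj_inv] at h3 h4
    exact ⟨h3, h4⟩
  · intro T W W' hT hW hW'
    obtain ⟨t, ht, e⟩ := v.trans _ _ _ (backS hT) (back hW) (back hW')
    refine ⟨g * t * g⁻¹, by simpa using mem_cj.1 ht, ?_⟩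
    rw [← cj_cj_inv g W', ← e, cj_cj, cj_cj]
  · intro T hT x hx h
    have := v.stab _ (backS hT) _ (mem_cj.1 hx) fun W hW => by
      have := h _ (hW.cj g)
      rw [← cj_cj_inv g T, ← cj_JJ, ← H72.NG.cj_om, ← cj_inf, ← cj_centralizer, mem_cj] at this
      exact this
    simpa [mul_assoc] using mem_cj.1 this

theorem Ed.symm {P P' : Subgroup G} (e : Ed P P') : Ed P' P :=
  ⟨e.v', e.v, inf_comm P P' ▸ e.syl', inf_comm P P' ▸ e.syl, fun X h1 h2 h3 => e.free X h1 h3 h2,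
    e.R', e.R⟩

theorem Ed.cj {P P' : Subgroup G} (e : Ed P P') (g : G) : Ed (cj g P) (cj g P') := by
  refine ⟨e.v.cj g, e.v'.cj g, ?_, ?_, ?_, ?_, ?_⟩
  · rw [← cj_inf]
    exact e.syl.map_conj g
  · rw [← cj_inf]
    exact e.syl'.map_conj g
  · intro X h1 h2 h3
    have a2 := cj_le_norm h2 g⁻¹
    have a3 := cj_le_norm h3 g⁻¹
    rw [cj_inv_cj] at a2 a3
    have := e.free _ (h1.map _) a2 a3
    exact (Subgroup.map_eq_bot_iff_of_injective _ (MulAut.conj g⁻¹).injective).1 this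
  · rw [← cj_resOf, ← cj_pCoreOf, ← cj_pCoreOf, cj_le_cj_iff]
    exact e.R
  · rw [← cj_resOf, ← cj_pCoreOf, ← cj_pCoreOf, cj_le_cj_iff]
    exact e.R'

end Cfsg.Agent.H71.QA
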