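import Mathlib

/-! Weights for the refined class count: `w s` (1, 2, then `√3 ^ (s - 1)`) and `r s`. -/

set_option autoImplicit false

namespace Cfsg.Agent.H71.ClassW

open Finset

/-- `√3` -/
noncomputable def c : ℝ := Real.sqrt 3

theorem c_sq : c * c = 3 := Real.mul_self_sqrt (by norm_num)

theorem c_pos : 0 < c := Real.sqrt_pos.2 (by norm_num)

theorem c_lo : 1.732 < c := by
  by_contra h
  have h := not_lt.1 h
  have := c_sq
  have := c_pos
  nlinarith

theorem c_hi : c < 1.7321 := by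
  by_contra h
  have h := not_lt.1 h
  have := c_sq
  nlinarith

/-- orbit weight -/
noncomputable def w (s : ℕ) : ℝ := if s = 2 then 2 else c ^ (s - 1)

/-- extra factor of the distinguished orbit -/
noncomputable def r (s : ℕ) : ℝ := if s ≤ 2 then 1 else (c + 1) / 2

theorem one_le_pow (n : ℕ) : 1 ≤ c ^ n := one_le_pow₀ (by have := c_lo; linarith)

theorem w_zero : w 0 = 1 := by simp [w]
theorem w_one : w 1 = 1 := by simp [w]
theorem w_two : w 2 = 2 := by simp [w]
theorem w_big (n : ℕ) : w (n + 3) = 3 * c ^ n := by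
  have : w (n + 3) = c ^ (n + 2) := by simp [w]
  rw [this, pow_add, pow_two, c_sq, mul_comm]
theorem r_one : r 1 = 1 := by simp [r]
theorem r_two : r 2 = 1 := by simp [r]
theorem r_big (n : ℕ) : r (n + 3) = (c + 1) / 2 := by simp [r]

theorem cases3 {s : ℕ} (hs : 1 ≤ s) : s = 1 ∨ s = 2 ∨ ∃ n, s = n + 3 := by
  rcases s with _ | _ | _ | n
  · omega
  · simp
  · simp
  · exact Or.inr (Or.inr ⟨n, rfl⟩)

theorem one_le_w (s : ℕ) : 1 ≤ w s := by
  unfold w
  split_ifs
  · norm_num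
  · exact one_le_pow _

theorem w_pos (s : ℕ) : 0 < w s := lt_of_lt_of_le one_pos (one_le_w s)

theorem one_le_r (s : ℕ) : 1 ≤ r s := by
  unfold r
  have := c_lo
  split_ifs
  · norm_num
  · linarith

theorem c3 : c ^ 3 = 3 * c := by rw [pow_succ, pow_two, c_sq]
theorem c2 : c ^ 2 = 3 := by rw [pow_two, c_sq]

theorem w_mul (s t : ℕ) : w s * w t ≤ w (s + t) := by
  have h1 := c_lo
  have h2 := c_hi
  have h3 := c_sq
  rcases Nat.eq_zero_or_pos s with rfl | hs
  · simp [w_zero]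
  rcases Nat.eq_zero_or_pos t with rfl | ht
  · simp [w_zero]
  rcases cases3 hs with rfl | rfl | ⟨s, rfl⟩ <;> rcases cases3 ht with rfl | rfl | ⟨t, rfl⟩
  · simp [w_one, w_two]
  · rw [w_one, w_two, show 1 + 2 = 0 + 3 from rfl, w_big]; norm_num
  · rw [w_one, w_big, show 1 + (t + 3) = (t + 1) + 3 by ring, w_big, pow_succ]
    have := one_le_pow t; nlinarith
  · rw [w_one, w_two, show 2 + 1 = 0 + 3 from rfl, w_big]; norm_num
  · rw [w_two, show 2 + 2 = 1 + 3 from rfl, w_big]; nlinarith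
  · rw [w_two, w_big, show 2 + (t + 3) = (t + 2) + 3 by ring, w_big, pow_add, c2]
    have := one_le_pow t; nlinarith
  · rw [w_one, w_big, show s + 3 + 1 = (s + 1) + 3 by ring, w_big, pow_succ]
    have := one_le_pow s; nlinarith
  · rw [w_two, w_big, show s + 3 + 2 = (s + 2) + 3 by ring, w_big, pow_add, c2]
    have := one_le_pow s; nlinarith
  · rw [w_big, w_big, show s + 3 + (t + 3) = (s + t + 3) + 3 by ring, w_big, pow_add, pow_add, c3]
    have := mul_pos (lt_of_lt_of_le one_pos (one_le_pow s)) (lt_of_lt_of_le one_pos (one_le_pow t))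
    nlinarith

theorem prod_w_le {ι : Type*} (B : Finset ι) (s : ι → ℕ) :
    ∏ i ∈ B, w (s i) ≤ w (∑ i ∈ B, s i) := by
  classical
  induction B using Finset.induction_on with
  | empty => simp [w_zero]
  | insert i B hi ih =>
    rw [prod_insert hi, sum_insert hi]
    exact le_trans (mul_le_mul_of_nonneg_left ih (w_pos _).le) (w_mul _ _)

/-- adding a part does not increase `P * S / c ^ m` once `S ≥ 2` -/
theorem add_part {s : ℕ} (hs : 1 ≤ s) {S : ℝ} (hS : 2 ≤ S) : w s * (r s + S) ≤ c ^ s * S := by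
  have h1 := c_lo
  have h2 := c_hi
  have h3 := c_sq
  rcases cases3 hs with rfl | rfl | ⟨s, rfl⟩
  · rw [w_one, r_one, pow_one]; nlinarith
  · rw [w_two, r_two, c2]; nlinarith
  · rw [w_big, r_big, pow_add, c3]
    have := one_le_pow s
    have : 3 * ((c + 1) / 2 + S) ≤ 3 * c * S := by nlinarith
    nlinarith

theorem prod_w_pos {ι : Type*} (B : Finset ι) (s : ι → ℕ) : 0 < ∏ i ∈ B, w (s i) :=
  prod_pos (fun _ _ => w_pos _)

theorem card_le_sum_r {ι : Type*} (B : Finset ι) (s : ι → ℕ) :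
    (B.card : ℝ) ≤ ∑ i ∈ B, r (s i) := by
  have := Finset.card_nsmul_le_sum B (fun i => r (s i)) 1 (fun i _ => one_le_r _)
  simpa using this

theorem b_aux {ι : Type*} (B : Finset ι) (s : ι → ℕ) (hs : ∀ i ∈ B, 1 ≤ s i) (hB : B.Nonempty) :
    (∏ i ∈ B, w (s i)) * (1 + ∑ i ∈ B, r (s i)) ≤ (c + 1) / 2 * c ^ (∑ i ∈ B, s i) := by
  classical
  have h1 := c_lo
  have h2 := c_hi
  have h3 := c_sq
  induction B using Finset.induction_on with
  | empty => simp at hB
  | insert i B hi ih =>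
    rw [prod_insert hi, sum_insert hi, sum_insert hi]
    have hsi := hs i (mem_insert_self _ _)
    rcases B.eq_empty_or_nonempty with rfl | hB'
    · simp only [prod_empty, sum_empty, mul_one, add_zero]
      rcases cases3 hsi with h | h | ⟨t, h⟩ <;> rw [h]
      · rw [w_one, r_one, pow_one]; nlinarith
      · rw [w_two, r_two, c2]; nlinarith
      · rw [w_big, r_big, pow_add, c3]
        have := one_le_pow t
        have : 3 * (1 + (c + 1) / 2) = (c + 1) / 2 * (3 * c) := by nlinarith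
        nlinarith
    · have ih' := ih (fun j hj => hs j (mem_insert_of_mem hj)) hB'
      have hc : (1 : ℝ) ≤ ∑ j ∈ B, r (s j) :=
        le_trans (by exact_mod_cast hB'.card_pos) (card_le_sum_r B s)
      have ha := add_part hsi (S := 1 + ∑ j ∈ B, r (s j)) (by linarith)
      have hp := prod_w_pos B s
      have hq : 0 < c ^ s i := pow_pos c_pos _
      rw [pow_add]
      calc w (s i) * (∏ j ∈ B, w (s j)) * (1 + (r (s i) + ∑ j ∈ B, r (s j)))
          = (∏ j ∈ B, w (s j)) * (w (s i) * (r (s i) + (1 + ∑ j ∈ B, r (s j)))) := by ring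
        _ ≤ (∏ j ∈ B, w (s j)) * (c ^ s i * (1 + ∑ j ∈ B, r (s j))) :=
          mul_le_mul_of_nonneg_left ha hp.le
        _ = c ^ s i * ((∏ j ∈ B, w (s j)) * (1 + ∑ j ∈ B, r (s j))) := by ring
        _ ≤ c ^ s i * ((c + 1) / 2 * c ^ (∑ j ∈ B, s j)) := mul_le_mul_of_nonneg_left ih' hq.le
        _ = _ := by ring

theorem two_parts {s t : ℕ} (hs : 1 ≤ s) (ht : 1 ≤ t) :
    1 + w s * w t * (r s + r t) ≤ c ^ (s + t) := by
  have h1 := c_lo
  have h2 := c_hi
  have h3 := c_sq
  rw [pow_add]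
  rcases cases3 hs with rfl | rfl | ⟨s, rfl⟩ <;> rcases cases3 ht with rfl | rfl | ⟨t, rfl⟩
  · rw [w_one, r_one, pow_one]; nlinarith
  · rw [w_one, r_one, w_two, r_two, pow_one, c2]; nlinarith
  · rw [w_one, r_one, w_big, r_big, pow_one, pow_add, c3]
    have := one_le_pow t; nlinarith
  · rw [w_one, r_one, w_two, r_two, pow_one, c2]; nlinarith
  · rw [w_two, r_two, c2]; nlinarith
  · rw [w_two, r_two, w_big, r_big, pow_add, c3, c2]
    have := one_le_pow t; nlinarith
  · rw [w_one, r_one, w_big, r_big, pow_one, pow_add, c3]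
    have := one_le_pow s; nlinarith
  · rw [w_two, r_two, w_big, r_big, pow_add, c3, c2]
    have := one_le_pow s; nlinarith
  · rw [w_big, r_big, w_big, r_big, pow_add, pow_add, c3]
    have h4 : 1 ≤ c ^ s * c ^ t := one_le_mul_of_one_le_of_one_le (one_le_pow s) (one_le_pow t)
    have h5 : c ^ s * (3 * c) * (c ^ t * (3 * c)) = 27 * (c ^ s * c ^ t) := by
      linear_combination (9 * (c ^ s * c ^ t)) * h3
    rw [h5]
    nlinarith

theorem c_aux {ι : Type*} (B : Finset ι) (s : ι → ℕ) (hs : ∀ i ∈ B, 1 ≤ s i) (hB : 2 ≤ B.card) :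
    1 + (∏ i ∈ B, w (s i)) * (∑ i ∈ B, r (s i)) ≤ c ^ (∑ i ∈ B, s i) := by
  classical
  induction B using Finset.induction_on with
  | empty => simp at hB
  | insert i B hi ih =>
    rw [prod_insert hi, sum_insert hi, sum_insert hi]
    have hsi := hs i (mem_insert_self _ _)
    rw [card_insert_of_notMem hi] at hB
    by_cases hB1 : B.card = 1
    · obtain ⟨j, rfl⟩ := card_eq_one.1 hB1
      simp only [prod_singleton, sum_singleton]
      exact two_parts hsi (hs j (by simp))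
    · have hB2 : 2 ≤ B.card := by omega
      have ih' := ih (fun j hj => hs j (mem_insert_of_mem hj)) hB2
      have hc : (2 : ℝ) ≤ ∑ j ∈ B, r (s j) :=
        le_trans (by exact_mod_cast hB2) (card_le_sum_r B s)
      have ha := add_part hsi hc
      have hp := prod_w_pos B s
      have hq : 1 ≤ c ^ s i := one_le_pow _
      rw [pow_add]
      have : w (s i) * (∏ j ∈ B, w (s j)) * (r (s i) + ∑ j ∈ B, r (s j))
          ≤ c ^ s i * ((∏ j ∈ B, w (s j)) * (∑ j ∈ B, r (s j))) := by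
        calc w (s i) * (∏ j ∈ B, w (s j)) * (r (s i) + ∑ j ∈ B, r (s j))
            = (∏ j ∈ B, w (s j)) * (w (s i) * (r (s i) + ∑ j ∈ B, r (s j))) := by ring
          _ ≤ (∏ j ∈ B, w (s j)) * (c ^ s i * (∑ j ∈ B, r (s j))) :=
            mul_le_mul_of_nonneg_left ha hp.le
          _ = _ := by ring
      nlinarith

theorem card_le_sum {ι : Type*} (B : Finset ι) (s : ι → ℕ) (hs : ∀ i ∈ B, 1 ≤ s i) :
    B.card ≤ ∑ i ∈ B, s i := by
  simpa using Finset.card_nsmul_le_sum B s 1 hs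

/-- (b) -/
theorem ineq_b {ι : Type*} (B : Finset ι) (s : ι → ℕ) (hs : ∀ i ∈ B, 1 ≤ s i) :
    (∏ i ∈ B, w (s i)) * (1 + ∑ i ∈ B, r (s i))
      ≤ w (∑ i ∈ B, s i + 1) * r (∑ i ∈ B, s i + 1) := by
  rcases B.eq_empty_or_nonempty with rfl | hB
  · simp [w_one, r_one]
  have hc := card_le_sum B s hs
  have hp := hB.card_pos
  by_cases h1 : ∑ i ∈ B, s i = 1
  · obtain ⟨j, rfl⟩ := card_eq_one.1 (show B.card = 1 by omega)
    simp only [prod_singleton, sum_singleton] at h1 ⊢
    rw [h1, w_one, r_one, w_two, r_two]; norm_num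
  · obtain ⟨m, hm⟩ : ∃ m, ∑ i ∈ B, s i = m + 2 := ⟨∑ i ∈ B, s i - 2, by omega⟩
    have := b_aux B s hs hB
    rw [hm] at this ⊢
    rw [show m + 2 + 1 = m + 3 from rfl, w_big, r_big]
    rw [pow_add, c2] at this
    linarith

/-- (c) -/
theorem ineq_c {ι : Type*} (B : Finset ι) (s : ι → ℕ) (hs : ∀ i ∈ B, 1 ≤ s i) :
    1 + (∏ i ∈ B, w (s i)) * (∑ i ∈ B, r (s i)) ≤ w (∑ i ∈ B, s i + 1) := by
  have h1 := c_lo
  have h2 := c_hi
  have h3 := c_sq
  rcases B.eq_empty_or_nonempty with rfl | hB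
  · simp [w_one]
  have hc := card_le_sum B s hs
  have hp := hB.card_pos
  by_cases hB1 : B.card = 1
  · obtain ⟨j, rfl⟩ := card_eq_one.1 hB1
    simp only [prod_singleton, sum_singleton]
    rcases cases3 (hs j (by simp)) with h | h | ⟨t, h⟩ <;> rw [h]
    · rw [w_one, r_one, w_two]; norm_num
    · rw [w_two, r_two, show 2 + 1 = 0 + 3 from rfl, w_big]; norm_num
    · rw [w_big, r_big, show t + 3 + 1 = (t + 1) + 3 by ring, w_big, pow_succ]
      have := one_le_pow t; nlinarith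
  · obtain ⟨m, hm⟩ : ∃ m, ∑ i ∈ B, s i = m + 2 := ⟨∑ i ∈ B, s i - 2, by omega⟩
    have := c_aux B s hs (by omega)
    rw [hm] at this ⊢
    rw [show m + 2 + 1 = m + 3 from rfl, w_big]
    rw [pow_add, c2] at this
    linarith

/-- (ii) -/
theorem ineq_ii {s t : ℕ} (hs : 1 ≤ s) (ht : 1 ≤ t) :
    (w (s + 1) - 1) * w t ≤ w s * r s * w (t + 1) := by
  have h1 := c_lo
  have h2 := c_hi
  have h3 := c_sq
  have h4 : 3 / 2 * w t ≤ w (t + 1) := by
    rcases cases3 ht with rfl | rfl | ⟨t, rfl⟩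
    · rw [w_one, w_two]; norm_num
    · rw [w_two, show 2 + 1 = 0 + 3 from rfl, w_big]; norm_num
    · rw [w_big, show t + 3 + 1 = (t + 1) + 3 by ring, w_big, pow_succ]
      have := one_le_pow t; nlinarith
  have h5 : w (s + 1) - 1 ≤ w s * r s * (3 / 2) := by
    rcases cases3 hs with rfl | rfl | ⟨s, rfl⟩
    · rw [w_one, w_two, r_one]; norm_num
    · rw [w_two, r_two, show 2 + 1 = 0 + 3 from rfl, w_big]; norm_num
    · rw [show s + 3 + 1 = (s + 1) + 3 by ring, w_big (s + 1), w_big s, r_big, pow_succ]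
      have := one_le_pow s; nlinarith
  have h6 := w_pos t
  have h7 : 0 < w s * r s := mul_pos (w_pos s) (lt_of_lt_of_le one_pos (one_le_r s))
  nlinarith

/-- (iv) -/
theorem ineq_iv {s t : ℕ} (hs : 2 ≤ s) (ht : s ≤ t + 1) :
    (w (s + 1) - 1) * w t ≤ w s * w (t + 1) := by
  have h1 := c_lo
  have h2 := c_hi
  have h3 := c_sq
  rcases cases3 (show 1 ≤ t by omega) with rfl | rfl | ⟨t, rfl⟩
  · obtain rfl : s = 2 := by omega
    rw [w_one, w_two, show 2 + 1 = 0 + 3 from rfl, w_big]; norm_num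
  · rw [w_two, show 2 + 1 = 0 + 3 from rfl, w_big]
    obtain rfl | rfl : s = 2 ∨ s = 3 := by omega
    · rw [w_two, show 2 + 1 = 0 + 3 from rfl, w_big]; norm_num
    · rw [show 3 + 1 = 1 + 3 from rfl, w_big, show 3 = 0 + 3 from rfl, w_big]
      norm_num; linarith
  · rw [w_big, show t + 3 + 1 = (t + 1) + 3 by ring, w_big, pow_succ]
    have h4 : w (s + 1) - 1 ≤ w s * c := by
      rcases cases3 (show 1 ≤ s by omega) with rfl | rfl | ⟨s, rfl⟩
      · omega
      · rw [w_two, show 2 + 1 = 0 + 3 from rfl, w_big]; norm_num; linarith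
      · rw [show s + 3 + 1 = (s + 1) + 3 by ring, w_big (s + 1), w_big s, pow_succ]; linarith
    have := one_le_pow t
    nlinarith

theorem w_sq {n : ℕ} (hn : 3 ≤ n) : w n ^ 2 = 3 ^ (n - 1) := by
  have : w n = c ^ (n - 1) := by
    unfold w
    rw [if_neg (by omega)]
  rw [this, ← pow_mul, mul_comm, pow_mul, c2]

end Cfsg.Agent.H71.ClassW
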