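import Cfsg.Agent.H71.ClassNum
import Cfsg.Agent.H71.ClassW

/-!
An elementary proof that a permutation group of degree `n ≥ 3` has at most `√3 ^ (n - 1)`
conjugacy classes: the orbit count of `ClassNum`, with weights per orbit.
-/

set_option autoImplicit false

namespace Cfsg.Agent.H71.ClassNum2

open MulAction Finset Cfsg.Agent.H71.ClassNum Cfsg.Agent.H71.ClassW

theorem one_pt {β : Type*} [Fintype β] (F F' : β → ℝ) (h0 : ∀ j, 0 ≤ F' j) (hF : ∀ j, F' j ≤ F j)
    (j : β) {K K' : ℝ} (hK : 0 ≤ K) (h : K * F' j ≤ K' * F j) :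
    K * ∏ i, F' i ≤ K' * ∏ i, F i := by
  classical
  rw [← mul_prod_erase univ F' (mem_univ j), ← mul_prod_erase univ F (mem_univ j), ← mul_assoc,
    ← mul_assoc]
  exact mul_le_mul h (prod_le_prod (fun i _ => h0 i) (fun i _ => hF i))
    (prod_nonneg (fun i _ => h0 i)) (le_trans (mul_nonneg hK (h0 j)) h)

theorem two_pt {β : Type*} [Fintype β] (F F' : β → ℝ) (h0 : ∀ j, 0 ≤ F' j) (hF : ∀ j, F' j ≤ F j)
    (j k : β) (hjk : k ≠ j) {K K' : ℝ} (hK : 0 ≤ K) (h : K * F' j * F' k ≤ K' * F j * F k) :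
    K * ∏ i, F' i ≤ K' * ∏ i, F i := by
  classical
  have hk : k ∈ univ.erase j := mem_erase.2 ⟨hjk, mem_univ k⟩
  rw [← mul_prod_erase univ F' (mem_univ j), ← mul_prod_erase univ F (mem_univ j),
    ← mul_prod_erase _ F' hk, ← mul_prod_erase _ F hk, ← mul_assoc, ← mul_assoc, ← mul_assoc,
    ← mul_assoc]
  exact mul_le_mul h (prod_le_prod (fun i _ => h0 i) (fun i _ => hF i))
    (prod_nonneg (fun i _ => h0 i)) (le_trans (mul_nonneg (mul_nonneg hK (h0 j)) (h0 k)) h)

variable {G α : Type*} [Group G] [MulAction G α] [Fintype α]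

noncomputable instance instFintypeQ (A : Finset α) : Fintype (Q G A) := Fintype.ofFinite _

open Classical in
/-- size of an orbit -/
noncomputable def sz (A : Finset α) (q : Q G A) : ℕ := (univ.filter (fun y => cl G A y = q)).card

/-- the potential -/
noncomputable def Phi (G : Type*) [Group G] [MulAction G α] (A : Finset α) : ℝ :=
  ∏ q : Q G A, w (sz A q)

open Classical in
/-- fibre of a projection -/
noncomputable def fib {A A' : Finset α} (π : Q G A' → Q G A) (j : Q G A) : Finset (Q G A') :=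
  univ.filter (fun q => π q = j)

theorem mem_fib {A A' : Finset α} {π : Q G A' → Q G A} {j : Q G A} {q : Q G A'} :
    q ∈ fib π j ↔ π q = j := by
  simp [fib]

theorem one_le_sz (A : Finset α) (q : Q G A) : 1 ≤ sz A q := by
  classical
  obtain ⟨y, rfl⟩ := cl_surj (G := G) A q
  exact card_pos.2 ⟨y, by simp⟩

theorem sz_of_mem {A : Finset α} {a : α} (ha : a ∈ A) : sz A (cl G A a) = 1 := by
  classical
  unfold sz
  rw [card_eq_one]
  refine ⟨a, ?_⟩
  ext y
  simp only [mem_filter, mem_univ, true_and, mem_singleton]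
  constructor
  · intro h
    obtain ⟨m, hm, rfl⟩ := cl_eq.1 h
    exact hm a ha
  · rintro rfl
    rfl

theorem fixed_of_sz {A : Finset α} {x : α} (hx : sz A (cl G A x) ≤ 1) {m : G} (hm : m ∈ fx G A) :
    m • x = x := by
  classical
  unfold sz at hx
  rw [card_le_one] at hx
  exact hx _ (by simpa using cl_eq.2 ⟨m, hm, rfl⟩) _ (by simp)

theorem one_le_Phi (A : Finset α) : 1 ≤ Phi G A :=
  Finset.one_le_prod (fun _ _ => one_le_w _)

omit [Fintype α] in
theorem exists_proj {A A' : Finset α} {g : G} (hx : ∀ a ∈ A, g • a ∈ A') :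
    ∃ π : Q G A' → Q G A, ∀ y, π (cl G A' y) = cl G A (g⁻¹ • y) := by
  refine ⟨Quotient.lift (fun y => cl G A (g⁻¹ • y)) ?_, fun y => rfl⟩
  intro y z hyz
  obtain ⟨m, hm, rfl⟩ := (cl_eq (G := G) (A := A')).1 (Quotient.sound hyz)
  refine cl_eq.2 ⟨g⁻¹ * m * g, ?_, ?_⟩
  · intro a ha
    rw [mul_smul, mul_smul, hm _ (hx a ha), inv_smul_smul]
  · rw [mul_smul, mul_smul, smul_inv_smul]

theorem sum_sz {A A' : Finset α} {g : G} {π : Q G A' → Q G A}
    (hπ : ∀ y, π (cl G A' y) = cl G A (g⁻¹ • y)) (j : Q G A) :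
    ∑ q ∈ fib π j, sz A' q = sz A j := by
  classical
  have h1 : (univ.filter (fun y => π (cl G A' y) = j)).card = sz A j := by
    unfold sz
    refine card_bij (fun y _ => g⁻¹ • y) ?_ ?_ ?_
    · intro y hy
      simpa [hπ] using hy
    · intro y _ z _ h
      exact MulAction.injective g⁻¹ h
    · intro y hy
      refine ⟨g • y, ?_, inv_smul_smul g y⟩
      simpa [hπ] using hy
  rw [← h1, card_eq_sum_card_fiberwise (f := cl G A') (t := fib π j)]
  · refine sum_congr rfl (fun q hq => ?_)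
    unfold sz
    congr 1
    ext y
    simp only [mem_filter, mem_univ, true_and]
    constructor
    · rintro rfl
      exact ⟨mem_fib.1 hq, rfl⟩
    · exact fun h => h.2
  · intro y hy
    simpa [mem_fib] using hy

/-- product of the weights over a fibre -/
noncomputable def P {A A' : Finset α} (π : Q G A' → Q G A) (j : Q G A) : ℝ :=
  ∏ q ∈ fib π j, w (sz A' q)

theorem Phi_eq {A A' : Finset α} (π : Q G A' → Q G A) : Phi G A' = ∏ j, P π j := by
  classical
  unfold Phi P fib
  rw [prod_fiberwise]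

theorem P_pos {A A' : Finset α} (π : Q G A' → Q G A) (j : Q G A) : 0 < P π j := prod_w_pos _ _

theorem P_le {A A' : Finset α} {g : G} {π : Q G A' → Q G A}
    (hπ : ∀ y, π (cl G A' y) = cl G A (g⁻¹ • y)) (j : Q G A) : P π j ≤ w (sz A j) := by
  rw [← sum_sz hπ]
  exact prod_w_le _ _

open Classical in
theorem erase_facts {A A' : Finset α} {g : G} {π : Q G A' → Q G A}
    (hπ : ∀ y, π (cl G A' y) = cl G A (g⁻¹ • y)) {a : α} (ha : a ∈ A') {j : Q G A}
    (hj : π (cl G A' a) = j) :
    P π j = ∏ q ∈ (fib π j).erase (cl G A' a), w (sz A' q) ∧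
    ∑ q ∈ (fib π j).erase (cl G A' a), sz A' q + 1 = sz A j ∧
    ∑ q ∈ fib π j, r (sz A' q) = 1 + ∑ q ∈ (fib π j).erase (cl G A' a), r (sz A' q) := by
  have hm : cl G A' a ∈ fib π j := mem_fib.2 hj
  refine ⟨?_, ?_, ?_⟩
  · unfold P
    rw [← mul_prod_erase _ _ hm, sz_of_mem ha, w_one, one_mul]
  · rw [← sum_sz hπ, ← add_sum_erase _ _ hm, sz_of_mem ha, add_comm]
  · rw [← add_sum_erase _ _ hm, sz_of_mem ha, r_one]

theorem sum_r_nonneg {ι : Type*} (B : Finset ι) (s : ι → ℕ) : 0 ≤ ∑ i ∈ B, r (s i) :=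
  le_trans (Nat.cast_nonneg _) (card_le_sum_r B s)

/-- the two-orbit estimate -/
theorem two_orb {A A' : Finset α} {g : G} {π : Q G A' → Q G A}
    (hπ : ∀ y, π (cl G A' y) = cl G A (g⁻¹ • y)) {a : α} (ha : a ∈ A') {j : Q G A}
    (hj : π (cl G A' a) ≠ j) {t : ℕ} (ht : sz A (π (cl G A' a)) = t + 1) {K' : ℝ}
    (h : (w (sz A j + 1) - 1) * w t ≤ K' * w (sz A j) * w (t + 1)) :
    (∑ q ∈ fib π j, r (sz A' q)) * Phi G A' ≤ K' * Phi G A := by
  classical
  rw [Phi_eq π]
  refine two_pt _ _ (fun j => (P_pos π j).le) (P_le hπ) j _ hj (sum_r_nonneg _ _) ?_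
  obtain ⟨h1, h2, -⟩ := erase_facts hπ ha rfl
  have h3 : P π (π (cl G A' a)) ≤ w t := by
    rw [h1]
    refine le_trans (prod_w_le _ _) (le_of_eq ?_)
    congr 1
    omega
  have h4 := ineq_c (fib π j) (sz A') (fun q _ => one_le_sz _ q)
  rw [sum_sz hπ] at h4
  rw [ht]
  refine le_trans (mul_le_mul ?_ h3 (P_pos _ _).le ?_) h
  · unfold P
    linarith
  · have := one_le_w (sz A j + 1)
    linarith

variable [Fintype G]

open Classical in
/-- the elements agreeing with `g` on `A` -/
noncomputable def X (A : Finset α) (g : G) : Finset G :=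
  univ.filter (fun h : G => ∀ a ∈ A, h • a = g • a)

theorem mem_X {A : Finset α} {g h : G} : h ∈ X A g ↔ ∀ a ∈ A, h • a = g • a := by
  simp [X]

open Classical in
/-- the classes met by a set -/
noncomputable def cls (Y : Finset G) : Finset (ConjClasses G) := Y.image ConjClasses.mk

theorem mem_cls {Y : Finset G} {h m : G} (hm : m * h * m⁻¹ ∈ Y) : ConjClasses.mk h ∈ cls Y := by
  classical
  refine mem_image.2 ⟨_, hm, ?_⟩
  rw [ConjClasses.mk_eq_mk_iff_isConj]
  exact (isConj_iff.2 ⟨m, rfl⟩).symm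

variable [DecidableEq α]

theorem step {A : Finset α} {g : G} {x : α} (hx : ∀ a ∈ A, g • a ∈ insert x A)
    {π : Q G (insert x A) → Q G A} (hπ : ∀ y, π (cl G _ y) = cl G A (g⁻¹ • y))
    (ihc : ∀ h : G, (∀ a ∈ insert x A, h • a ∈ insert x A) →
      ((cls (X (insert x A) h)).card : ℝ) ≤ Phi G (insert x A))
    (iho : ∀ (h : G) (y : α), y ∉ insert x A → (∀ a ∈ insert x A, h • a ∈ insert y (insert x A)) →
      ((cls (X (insert x A) h)).card : ℝ) ≤ r (sz _ (cl G (insert x A) y)) * Phi G (insert x A))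
    (Y : Finset G) (hY : Y ⊆ X A g) (B : Finset (Q G (insert x A))) (hB : B ⊆ fib π (cl G A x))
    (hYB : ∀ h ∈ Y, cl G _ (h • x) ∈ B) :
    ((cls Y).card : ℝ) ≤ (∑ q ∈ B, r (sz _ q)) * Phi G (insert x A) := by
  classical
  have hrep : ∀ q : Q G (insert x A), ∃ k : G, (∀ a ∈ A, k • a = g • a) ∧
      (π q = cl G A x → cl G _ (k • x) = q) := by
    intro q
    by_cases hq : π q = cl G A x
    · obtain ⟨y, rfl⟩ := cl_surj (G := G) _ q
      rw [hπ] at hq
      obtain ⟨m, hm, hmx⟩ := cl_eq.1 hq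
      refine ⟨g * m, fun a ha => by rw [mul_smul, hm a ha], fun _ => ?_⟩
      rw [mul_smul, hmx, smul_inv_smul]
    · exact ⟨g, fun _ _ => rfl, fun h => (hq h).elim⟩
  choose k hk1 hk2 using hrep
  have hsub : cls Y ⊆ B.biUnion (fun q => cls (X (insert x A) (k q))) := by
    intro cc hc
    obtain ⟨h, hh, rfl⟩ := mem_image.1 hc
    have hh' := mem_X.1 (hY hh)
    refine mem_biUnion.2 ⟨_, hYB h hh, ?_⟩
    obtain ⟨m, hm, hmx⟩ := cl_eq.1 (hk2 _ (mem_fib.1 (hB (hYB h hh))))
    refine mem_cls (m := m) (mem_X.2 (fun a ha => ?_))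
    have hm' : m⁻¹ • a = a := (fx G _).inv_mem hm a ha
    rw [mul_smul, mul_smul, hm']
    rcases mem_insert.1 ha with rfl | ha'
    · exact hmx
    · rw [hh' a ha', hm _ (hx a ha'), hk1 _ a ha']
  have h1 : (cls Y).card ≤ ∑ q ∈ B, (cls (X (insert x A) (k q))).card :=
    le_trans (card_le_card hsub) card_biUnion_le
  have h2 : ((cls Y).card : ℝ) ≤ ∑ q ∈ B, ((cls (X (insert x A) (k q))).card : ℝ) := by
    exact_mod_cast h1
  refine le_trans h2 ?_
  rw [sum_mul]
  refine sum_le_sum (fun q hq => ?_)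
  by_cases hy : k q • x ∈ insert x A
  · refine le_trans (ihc _ (fun a ha => ?_)) ?_
    · rcases mem_insert.1 ha with rfl | ha'
      · exact hy
      · rw [hk1 _ a ha']
        exact hx a ha'
    · exact le_mul_of_one_le_left (le_trans zero_le_one (one_le_Phi _)) (one_le_r _)
  · have := iho (k q) _ hy (fun a ha => by
      rcases mem_insert.1 ha with rfl | ha'
      · exact mem_insert_self _ _
      · rw [hk1 _ a ha']
        exact mem_insert_of_mem (hx a ha'))
    rwa [hk2 q (mem_fib.1 (hB hq))] at this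

omit [DecidableEq α] in
theorem mem_fib_of_X {A A' : Finset α} {g : G} {π : Q G A' → Q G A}
    (hπ : ∀ y, π (cl G _ y) = cl G A (g⁻¹ • y)) (x : α) {h : G} (hh : h ∈ X A g) :
    cl G A' (h • x) ∈ fib π (cl G A x) := by
  rw [mem_fib, hπ]
  refine cl_eq.2 ⟨g⁻¹ * h, fun a ha => ?_, by rw [mul_smul]⟩
  rw [mul_smul, mem_X.1 hh a ha, inv_smul_smul]

omit [Fintype α] [Fintype G] in
theorem exists_pt {A : Finset α} {g : G} {x : α} (hxA : x ∉ A)
    (hx : ∀ a ∈ A, g • a ∈ insert x A) :
    ∃ a ∈ insert x A, ∀ b ∈ insert x A, b = a ∨ ∃ a' ∈ A, g • a' = b := by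
  have hsub : A.image (fun a => g • a) ⊆ insert x A := by
    intro b hb
    obtain ⟨a, ha, rfl⟩ := mem_image.1 hb
    exact hx a ha
  have h1 : (insert x A \ A.image (fun a => g • a)).card = 1 := by
    rw [card_sdiff_of_subset hsub, card_image_of_injective _ (MulAction.injective g),
      card_insert_of_notMem hxA]
    omega
  obtain ⟨a, ha⟩ := card_eq_one.1 h1
  have ha' : a ∈ insert x A \ A.image (fun a => g • a) := by rw [ha]; simp
  refine ⟨a, (mem_sdiff.1 ha').1, fun b hb => ?_⟩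
  by_cases hb' : b ∈ A.image (fun a => g • a)
  · exact Or.inr (mem_image.1 hb')
  · left
    have : b ∈ insert x A \ A.image (fun a => g • a) := mem_sdiff.2 ⟨hb, hb'⟩
    rw [ha] at this
    exact mem_singleton.1 this

omit [Fintype G] in
theorem open_est {A : Finset α} {g : G} {x : α} (hxA : x ∉ A) (hx : ∀ a ∈ A, g • a ∈ insert x A)
    {π : Q G (insert x A) → Q G A} (hπ : ∀ y, π (cl G _ y) = cl G A (g⁻¹ • y)) :
    (∑ q ∈ fib π (cl G A x), r (sz _ q)) * Phi G (insert x A)
      ≤ r (sz A (cl G A x)) * Phi G A := by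
  classical
  obtain ⟨a, ha, hall⟩ := exists_pt hxA hx
  by_cases h0 : π (cl G _ a) = cl G A x
  · rw [Phi_eq π]
    refine one_pt _ _ (fun j => (P_pos π j).le) (P_le hπ) (cl G A x) (sum_r_nonneg _ _) ?_
    obtain ⟨h1, h2, h3⟩ := erase_facts hπ ha h0
    have := ineq_b ((fib π (cl G A x)).erase (cl G _ a)) (sz _) (fun q _ => one_le_sz _ q)
    rw [h2] at this
    rw [h1, h3]
    linarith
  by_cases h1 : sz A (π (cl G _ a)) ≤ 1
  · rw [Phi_eq π]
    refine one_pt _ _ (fun j => (P_pos π j).le) (P_le hπ) (cl G A x) (sum_r_nonneg _ _) ?_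
    have hc : fib π (cl G A x) = {cl G _ (g • x)} := by
      ext q
      rw [mem_singleton, mem_fib]
      obtain ⟨y, rfl⟩ := cl_surj (G := G) _ q
      constructor
      · intro h
        rw [hπ] at h h1
        obtain ⟨m, hm, hmx⟩ := cl_eq.1 h
        refine cl_eq.2 ⟨g * m * g⁻¹, fun b hb => ?_, ?_⟩
        · rcases hall b hb with rfl | ⟨a', ha', rfl⟩
          · rw [mul_smul, mul_smul, fixed_of_sz h1 hm, smul_inv_smul]
          · rw [mul_smul, mul_smul, inv_smul_smul, hm a' ha']
        · rw [mul_smul, mul_smul, inv_smul_smul, hmx, smul_inv_smul]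
      · intro h
        rw [h, hπ, inv_smul_smul]
    have hs := sum_sz hπ (cl G A x)
    unfold P
    rw [hc] at hs ⊢
    rw [sum_singleton] at hs
    rw [sum_singleton, prod_singleton, hs]
  · obtain ⟨t, ht⟩ : ∃ t, sz A (π (cl G _ a)) = t + 1 := ⟨sz A (π (cl G _ a)) - 1, by omega⟩
    refine two_orb hπ ha h0 ht ?_
    have := ineq_ii (one_le_sz A (cl G A x)) (show 1 ≤ t by omega)
    linarith

omit [Fintype G] [DecidableEq α] in
theorem sz_le_of_closed {A : Finset α} {g : G} (hg : ∀ a ∈ A, g • a ∈ A) (x : α) :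
    sz A (cl G A x) ≤ sz A (cl G A (g⁻¹ • x)) := by
  classical
  unfold sz
  refine card_le_card_of_injOn (fun y => g⁻¹ • y) ?_ (fun y _ z _ h => MulAction.injective g⁻¹ h)
  intro y hy
  obtain ⟨π, hπ⟩ := exists_proj (G := G) hg
  have hy' : cl G A y = cl G A x := by simpa using hy
  have : cl G A (g⁻¹ • y) = cl G A (g⁻¹ • x) := by rw [← hπ, ← hπ, hy']
  simpa using this

theorem main [FaithfulSMul G α] (n : ℕ) : ∀ A : Finset α, Aᶜ.card = n →
    (∀ g : G, (∀ a ∈ A, g • a ∈ A) → ((cls (X A g)).card : ℝ) ≤ Phi G A) ∧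
    (∀ (g : G) (x : α), x ∉ A → (∀ a ∈ A, g • a ∈ insert x A) →
      ((cls (X A g)).card : ℝ) ≤ r (sz A (cl G A x)) * Phi G A) := by
  classical
  induction n using Nat.strong_induction_on with
  | _ n ih =>
  intro A hA
  have hlt : ∀ (A' : Finset α) (x : α), A ⊆ A' → x ∈ A' → x ∉ A → A'ᶜ.card < n := by
    intro A' x h1 h2 h3
    rw [← hA]
    apply card_lt_card
    refine ⟨compl_subset_compl.2 h1, fun h => ?_⟩
    exact (mem_compl.1 (h (mem_compl.2 h3))) h2
  refine ⟨fun g hg => ?_, fun g x hxA hx => ?_⟩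
  · by_cases hex : ∃ x, 2 ≤ sz A (cl G A x)
    swap
    · refine le_trans ?_ (one_le_Phi A)
      have : (cls (X A g)).card ≤ 1 := by
        refine le_trans card_image_le (card_le_one.2 (fun a ha b hb => ?_))
        apply eq_of_smul_eq_smul (α := α)
        intro y
        have hm : b⁻¹ * a ∈ fx G A := fun z hz => by
          rw [mul_smul, mem_X.1 ha z hz, ← mem_X.1 hb z hz, inv_smul_smul]
        have := fixed_of_sz (x := y) (by push Not at hex; have := hex y; omega) hm
        rw [mul_smul, inv_smul_eq_iff] at this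
        exact this
      exact_mod_cast this
    obtain ⟨x, hx2⟩ := hex
    have hxA : x ∉ A := fun h => by rw [sz_of_mem h] at hx2; omega
    have hx : ∀ a ∈ A, g • a ∈ insert x A := fun a ha => mem_insert_of_mem (hg a ha)
    obtain ⟨π, hπ⟩ := exists_proj (G := G) hx
    obtain ⟨ihc, iho⟩ := ih _ (hlt (insert x A) x (subset_insert _ _) (mem_insert_self _ _) hxA)
      (insert x A) rfl
    have hxm : x ∈ insert x A := mem_insert_self _ _
    by_cases h0 : π (cl G _ x) = cl G A x
    swap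
    · refine le_trans (step hx hπ ihc iho _ Subset.rfl _ Subset.rfl
        (fun h hh => mem_fib_of_X hπ x hh)) ?_
      have h1 := sz_le_of_closed hg x
      rw [← hπ] at h1
      obtain ⟨t, ht⟩ : ∃ t, sz A (π (cl G _ x)) = t + 1 := ⟨sz A (π (cl G _ x)) - 1, by omega⟩
      have := two_orb (K' := 1) hπ hxm h0 ht (by
        have := ineq_iv hx2 (show _ ≤ t + 1 by omega)
        linarith)
      linarith
    set O : Finset α := univ.filter (fun y => cl G A y = cl G A x) with hO
    set Y1 := (X A g).filter (fun h => ∀ y ∈ O, h • y = y) with hY1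
    set Y2 := (X A g).filter (fun h => h • x ≠ x) with hY2
    have hsub : cls (X A g) ⊆ cls Y1 ∪ cls Y2 := by
      intro cc hc
      obtain ⟨h, hh, rfl⟩ := mem_image.1 hc
      by_cases h1 : ∀ y ∈ O, h • y = y
      · exact mem_union_left _ (mem_image.2 ⟨h, mem_filter.2 ⟨hh, h1⟩, rfl⟩)
      · push Not at h1
        obtain ⟨y, hy, hy'⟩ := h1
        obtain ⟨m, hm, hmy⟩ := cl_eq.1 (mem_filter.1 hy).2.symm
        refine mem_union_right _ (mem_cls (m := m) (mem_filter.2 ⟨mem_X.2 (fun a ha => ?_), ?_⟩))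
        · rw [mul_smul, mul_smul, (fx G A).inv_mem hm a ha, mem_X.1 hh a ha, hm _ (hg a ha)]
        · rw [← hmy, mul_smul, mul_smul, inv_smul_smul]
          exact fun h => hy' (MulAction.injective m h)
    have hws := w_pos (sz A (cl G A x))
    have hb1 : w (sz A (cl G A x)) * ((cls Y1).card : ℝ) ≤ 1 * Phi G A := by
      have hle : ((cls Y1).card : ℝ) ≤ Phi G (A ∪ O) := by
        rcases Y1.eq_empty_or_nonempty with he | ⟨h0, hh0⟩
        · rw [he]
          simpa [cls] using le_trans zero_le_one (one_le_Phi (G := G) (A ∪ O))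
        · obtain ⟨hh1, hh2⟩ := mem_filter.1 hh0
          refine le_trans ?_ ((ih _ (hlt (A ∪ O) x subset_union_left
            (mem_union_right _ (by simp [hO])) hxA) (A ∪ O) rfl).1 h0 (fun a ha => ?_))
          · refine Nat.cast_le.2 (card_le_card (image_subset_image (fun h hh => ?_)))
            obtain ⟨hh3, hh4⟩ := mem_filter.1 hh
            refine mem_X.2 (fun a ha => ?_)
            rcases mem_union.1 ha with ha | ha
            · rw [mem_X.1 hh3 a ha, mem_X.1 hh1 a ha]
            · rw [hh4 a ha, hh2 a ha]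
          · rcases mem_union.1 ha with ha' | ha'
            · rw [mem_X.1 hh1 a ha']
              exact mem_union_left _ (hg a ha')
            · rw [hh2 a ha']
              exact ha
      refine le_trans (mul_le_mul_of_nonneg_left hle hws.le) ?_
      obtain ⟨π', hπ'⟩ := exists_proj (G := G) (g := 1) (A := A) (A' := A ∪ O)
        (fun a ha => by rw [one_smul]; exact mem_union_left _ ha)
      rw [Phi_eq π']
      refine one_pt _ _ (fun j => (P_pos π' j).le) (P_le hπ') (cl G A x) hws.le (le_of_eq ?_)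
      have : P π' (cl G A x) = 1 := by
        refine prod_eq_one (fun q hq => ?_)
        obtain ⟨y, rfl⟩ := cl_surj (G := G) _ q
        rw [mem_fib, hπ', inv_one, one_smul] at hq
        rw [sz_of_mem (mem_union_right _ (by simpa [hO] using hq)), w_one]
      rw [this, mul_comm]
    have hb2 : w (sz A (cl G A x)) * ((cls Y2).card : ℝ)
        ≤ (w (sz A (cl G A x)) - 1) * Phi G A := by
      have hle := step hx hπ ihc iho Y2 (filter_subset _ _) _
        (erase_subset (cl G _ x) (fib π (cl G A x))) (fun h hh => by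
          obtain ⟨h1, h2⟩ := mem_filter.1 hh
          refine mem_erase.2 ⟨fun h3 => h2 ?_, mem_fib_of_X hπ x h1⟩
          obtain ⟨m, hm, hmx⟩ := cl_eq.1 h3
          rw [← hmx, hm x hxm])
      refine le_trans (mul_le_mul_of_nonneg_left hle hws.le) ?_
      rw [← mul_assoc, Phi_eq π]
      refine one_pt _ _ (fun j => (P_pos π j).le) (P_le hπ) (cl G A x)
        (mul_nonneg hws.le (sum_r_nonneg _ _)) ?_
      obtain ⟨h1, h2, -⟩ := erase_facts hπ hxm h0
      have := ineq_c ((fib π (cl G A x)).erase (cl G _ x)) (sz _) (fun q _ => one_le_sz _ q)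
      rw [h2] at this
      rw [h1]
      nlinarith
    have h3 : ((cls (X A g)).card : ℝ) ≤ (cls Y1).card + (cls Y2).card := by
      exact_mod_cast le_trans (card_le_card hsub) (card_union_le _ _)
    refine le_of_mul_le_mul_left ?_ hws
    nlinarith
  · obtain ⟨π, hπ⟩ := exists_proj (G := G) hx
    obtain ⟨ihc, iho⟩ := ih _ (hlt (insert x A) x (subset_insert _ _) (mem_insert_self _ _) hxA)
      (insert x A) rfl
    exact le_trans (step hx hπ ihc iho _ Subset.rfl _ Subset.rfl
      (fun h hh => mem_fib_of_X hπ x hh)) (open_est hxA hx hπ)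

end Cfsg.Agent.H71.ClassNum2

namespace Cfsg.Agent.H71.ClassNum2

open MulAction Finset Cfsg.Agent.H71.ClassNum Cfsg.Agent.H71.ClassW

variable {G α : Type*} [Group G] [MulAction G α] [Fintype α]

theorem card_conjClasses_le_Phi [Finite G] [FaithfulSMul G α] :
    (Nat.card (ConjClasses G) : ℝ) ≤ Phi G (∅ : Finset α) := by
  classical
  have : Fintype G := Fintype.ofFinite _
  refine le_trans ?_ ((main (G := G) _ (∅ : Finset α) rfl).1 1 (by simp))
  have : Fintype (ConjClasses G) := Fintype.ofFinite _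
  rw [Nat.card_eq_fintype_card, ← card_univ]
  refine Nat.cast_le.2 (card_le_card (fun cc _ => ?_))
  obtain ⟨h, rfl⟩ := ConjClasses.mk_surjective cc
  exact mem_image.2 ⟨h, mem_X.2 (by simp), rfl⟩

theorem Phi_le (A : Finset α) : Phi G A ≤ w (Fintype.card α) := by
  classical
  refine le_trans (prod_w_le _ _) (le_of_eq ?_)
  congr 1
  rw [← card_univ, card_eq_sum_card_fiberwise (f := cl G A) (t := univ) (by simp)]
  rfl

/-- `k(G) ^ 2 ≤ 3 ^ (n - 1)` for a group acting faithfully on `n ≥ 3` points. -/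
theorem card_conjClasses_sq_le [Finite G] [FaithfulSMul G α] (hn : 3 ≤ Fintype.card α) :
    Nat.card (ConjClasses G) ^ 2 ≤ 3 ^ (Fintype.card α - 1) := by
  have h1 := le_trans (card_conjClasses_le_Phi (G := G) (α := α)) (Phi_le _)
  have h2 := pow_le_pow_left₀ (Nat.cast_nonneg _) h1 2
  rw [w_sq hn] at h2
  exact_mod_cast h2

end Cfsg.Agent.H71.ClassNum2
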