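import Cfsg.Agent.H45.OnDefs

/-! The stabilizers do not all have even index. -/

set_option autoImplicit false

namespace Cfsg.Agent.H71.OnP4

open Cfsg.Agent.H45.On Subgroup

universe u v

theorem pg_sup {G : Type u} [Group G] {A B : Subgroup G} (hA : IsPGroup 2 A) (hB : IsPGroup 2 B)
    (h : Cm A B) : IsPGroup 2 (A ⊔ B : Subgroup G) :=
  IsPGroup.to_sup_of_normal_right' hA hB fun a ha => centralizer_le_normalizer _
    (mem_centralizer_iff.2 fun b hb => (h a ha b hb).symm)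

theorem pg_inv {G : Type u} [Group G] {t : G} (h : Inv t) : IsPGroup 2 (zpowers t) := by
  have : Fact (Nat.Prime 2) := ⟨Nat.prime_two⟩
  refine IsPGroup.of_card (n := 1) ?_
  rw [Nat.card_zpowers, pow_one]
  exact orderOf_eq_prime (by rw [pow_two]; exact h.1) h.2

theorem p4 (sim : SimStmt.{u}) (grow : GrowStmt.{u}) (sy : SyStmt.{u}) (sz : SzStmt.{u, v}) :
    P4Stmt.{u, v} := by
  intro G Ω _ _ _ _ S T ev e2 e3 ss ix
  obtain ⟨x, y, xy⟩ := S.nt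
  obtain ⟨M, hM⟩ := S.one x
  obtain ⟨M1, M2, h1, h2, h12⟩ := T.two y
  obtain ⟨Q, -, hQ⟩ := (sy (St M y) ⊥ bot_le IsPGroup.of_bot).1
  obtain ⟨B1, -, hB1⟩ := (sy (St M1 x) ⊥ bot_le IsPGroup.of_bot).1
  obtain ⟨B2, -, hB2⟩ := (sy (St M2 x) ⊥ bot_le IsPGroup.of_bot).1
  have c12 : Cm M1 M2 := S.comm h1 h2 h12
  have pB : IsPGroup 2 (B1 ⊔ B2 : Subgroup G) :=
    pg_sup hB1.2.1 hB2.2.1 fun a ha b hb => c12 a (hB1.1 ha).1 b (hB2.1 hb).1
  have BY : B1 ⊔ B2 ≤ MulAction.stabilizer G y :=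
    sup_le (fun a ha => S.fx h1 a (hB1.1 ha).1) fun a ha => S.fx h2 a (hB2.1 ha).1
  have nm : ∀ b : G, cj b M = M → b ∈ normalizer (M : Set G) := fun b hb => by
    rw [mem_normalizer_iff'']
    intro z
    rw [← mem_cj, hb]
  have BN : ∀ b ∈ B1 ⊔ B2, cj b M = M := fun b hb => by
    have : B1 ⊔ B2 ≤ normalizer (M : Set G) :=
      sup_le (fun a ha => nm a (e2 x y M M1 a hM h1 (hB1.1 ha).1 (hB1.1 ha).2))
        fun a ha => nm a (e2 x y M M2 a hM h2 (hB2.1 ha).1 (hB2.1 ha).2)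
    ext z
    rw [mem_cj]
    exact (mem_normalizer_iff''.1 (this hb) z).symm
  have BC : Cm (B1 ⊔ B2) (St M y) := fun b hb z hz => by
    have : B1 ⊔ B2 ≤ centralizer ((St M y : Subgroup G) : Set G) :=
      sup_le (fun a ha => mem_centralizer_iff.2 fun w hw => e3 x y M M1 hM h1 xy w hw a (hB1.1 ha))
        fun a ha => mem_centralizer_iff.2 fun w hw => e3 x y M M2 hM h2 xy w hw a (hB2.1 ha)
    exact (mem_centralizer_iff.1 (this hb) z hz).symm
  obtain ⟨g, gM, gY, -, he⟩ :=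
    grow M (MulAction.stabilizer G y) (B1 ⊔ B2) Q pB BY BN BC hQ (ix x y M hM xy)
  have gy : g • y ≠ y := gY
  -- `e` is a bijection of `B2` onto `Q`
  let e : B2 → Q := fun b => ⟨_, he b (mem_sup_right b.2)⟩
  have inj : Function.Injective e := fun b b' h => by
    have h3 : (b : G)⁻¹ * (g * b * g⁻¹) = (b' : G)⁻¹ * (g * b' * g⁻¹) := congrArg Subtype.val h
    by_contra hne
    have h4 : (b : G) * (b' : G)⁻¹ ≠ 1 := fun h4 => hne (Subtype.ext (mul_inv_eq_one.1 h4))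
    refine gy (T.cn h2 (mul_mem (hB2.1 b.2).1 (inv_mem (hB2.1 b'.2).1)) h4 ?_).2
    calc g * ((b : G) * (b' : G)⁻¹)
        = b * ((b : G)⁻¹ * (g * b * g⁻¹)) * ((b' : G)⁻¹ * (g * b' * g⁻¹))⁻¹ * (b' : G)⁻¹ * g := by
          group
      _ = (b : G) * (b' : G)⁻¹ * g := by rw [h3]; group
  have bij : Function.Bijective e := (Nat.bijective_iff_injective_and_card e).2
    ⟨inj, le_antisymm (Nat.card_le_card_of_injective e inj)
      (sz S T e2 e3 ix y x M2 M B2 Q h2 hM xy.symm hB2 hQ)⟩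
  -- conjugates centralise `H`
  have star : ∀ M', S.C y M' → ∀ b ∈ B1 ⊔ B2, b ∈ M' → ∀ h ∈ St M1 (g • y),
      h * (g * b * g⁻¹) = g * b * g⁻¹ * h := fun M' hM' b hb hb' h hh => by
    refine e3 y (g • y) M1 (cj g M') h1 (S.conj g hM') gy.symm h hh _ ⟨cj_mem hb', ?_⟩
    have := mul_mem (BY hb) (hQ.1 (he b hb)).2
    rwa [mul_inv_cancel_left] at this
  have cen : ∀ a ∈ B1, ∀ h ∈ St M1 (g • y), h * a = a * h := fun a ha h hh => by
    have haB : a ∈ B1 ⊔ B2 := mem_sup_left ha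
    obtain ⟨c, hc⟩ := bij.2 (⟨_, he a haB⟩ : Q)⁻¹
    have hc' : (c : G)⁻¹ * (g * c * g⁻¹) = (a⁻¹ * (g * a * g⁻¹))⁻¹ := congrArg Subtype.val hc
    have h3 := BC c (mem_sup_right c.2) _ (hQ.1 (he a haB))
    have h4 : a = (g * a * g⁻¹) * (g * c * g⁻¹) * (c : G)⁻¹ := by
      calc a = a * (a⁻¹ * (g * a * g⁻¹) * c) * (a⁻¹ * (g * a * g⁻¹))⁻¹ * (c : G)⁻¹ := by
            rw [← h3]; group
        _ = _ := by rw [← hc']; group
    have k1 : Commute h (g * a * g⁻¹) := star M1 h1 a haB (hB1.1 ha).1 h hh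
    have k2 : Commute h (g * c * g⁻¹) := star M2 h2 c (mem_sup_right c.2) (hB2.1 c.2).1 h hh
    have k3 : Commute h (c : G) := c12 h hh.1 c (hB2.1 c.2).1
    have := (k1.mul_right k2).mul_right k3.inv_right
    rw [← h4] at this
    exact this
  obtain ⟨a, ha, a1⟩ : ∃ a ∈ B1, a ≠ 1 := by
    obtain ⟨t, ht, it, tx⟩ := ev y x M1 h1
    obtain ⟨k, -, hk⟩ := (sy (St M1 x) (zpowers t) (zpowers_le.2 ⟨ht, tx⟩) (pg_inv it)).2.2 B1 hB1
    refine ⟨_, hk (cj_mem (mem_zpowers t)), fun h => it.2 ?_⟩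
    calc t = k⁻¹ * (k * t * k⁻¹) * k := by group
      _ = 1 := by rw [h]; group
  have haB : a ∈ B1 ⊔ B2 := mem_sup_left ha
  have e1 : a⁻¹ * (g * a * g⁻¹) ≠ 1 := fun h => by
    refine gy (T.cn h1 (hB1.1 ha).1 a1 ?_).2
    calc g * a = a * (a⁻¹ * (g * a * g⁻¹)) * g := by group
      _ = a * g := by rw [h, mul_one]
  have inv : ∀ f ∈ St M1 (g • y), Inv f → ∀ h ∈ St M1 (g • y), h * f = f * h := fun f hf i => by
    have k1 : Commute f a := cen a ha f hf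
    have k2 : Commute f (g * a * g⁻¹) := star M1 h1 a haB (hB1.1 ha).1 f hf
    have fx := (T.cn hM (hQ.1 (he a haB)).1 e1 (k1.inv_right.mul_right k2)).2
    have hP : IsPGroup 2 (B1 ⊔ zpowers f : Subgroup G) := by
      refine pg_sup hB1.2.1 (pg_inv i) ?_
      rintro b hb _ ⟨n, rfl⟩
      exact (Commute.zpow_left (cen b hb f hf) n).symm
    have := (sy (St M1 x) _ (sup_le hB1.1 (zpowers_le.2 ⟨hf.1, fx⟩)) hP).2.1 B1 hB1 le_sup_left
    exact cen f (this ▸ mem_sup_right (mem_zpowers f))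
  have nrm : ∀ s ∈ M1, ∀ h ∈ St M1 (g • y), s * h * s⁻¹ ∈ St M1 (g • y) := fun s hs h hh => by
    refine mem_inf.2 ⟨mul_mem (mul_mem hs (mem_inf.1 hh).1) (inv_mem hs), ?_⟩
    have key : h • s⁻¹ • g • y = s⁻¹ • g • y := by
      by_cases h3 : s⁻¹ • g • y = g • y
      · rw [h3]; exact hh.2
      obtain ⟨f, hf, i, h4⟩ := ss y (g • y) M1 s⁻¹ h1 gy.symm (inv_mem hs) h3
      exact (h4 h hh).1 (inv f hf i h hh)
    change (s * h * s⁻¹) • g • y = g • y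
    rw [mul_smul, mul_smul, key, smul_inv_smul]
  rcases (sim M1 (S.simple h1) (S.nab h1)).2.2.2.2.1 _ inf_le_left nrm with h | h
  · obtain ⟨t, ht, it, tx⟩ := ev y (g • y) M1 h1
    exact it.2 (mem_bot.1 (h ▸ (⟨ht, tx⟩ : t ∈ St M1 (g • y))))
  · exact gy (T.d0 y (g • y) M1 h1 fun m hm => (h.ge hm).2)

end Cfsg.Agent.H71.OnP4
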