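import Cfsg.Agent.H71.QADefs
import Cfsg.Agent.H82.NG2
import Cfsg.Agent.H53.SubnPair

/-!
QA block C, part 1: points and lines of a vertex, critical pairs.
-/

set_option autoImplicit false
set_option linter.unusedSectionVars false

namespace Cfsg.Agent.H71.QA

open Cfsg Cfsg.Agent.H98 Cfsg.Agent.H84 Cfsg.Agent.H71.NG Cfsg.Agent.H72.NG Subgroup
open scoped commutatorElement

variable {G : Type*} [Group G]

/-! ### Four-groups -/

theorem four_cases {W : Subgroup G} (h4 : Nat.card W = 4) (ea : IsElementaryAbelian 2 W)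
    {a b c : G} (ha : a ∈ W) (hb : b ∈ W) (a1 : a ≠ 1) (b1 : b ≠ 1) (ab : a ≠ b) (hc : c ∈ W) :
    c = 1 ∨ c = a ∨ c = b ∨ c = a * b := by
  obtain ⟨e, φ, -, -, hs, -, -⟩ := exists_perm h4
  by_contra hn
  push Not at hn
  obtain ⟨c1, ca, cb, cab⟩ := hn
  have ab1 : a * b ≠ 1 := fun h => ab (by
    have := ea_sq ea hb
    rw [← h] at this
    exact (mul_right_cancel this).symm)
  have aba : a * b ≠ a := fun h => b1 (by simpa using h)
  have abb : a * b ≠ b := fun h => a1 (by simpa using h)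
  obtain ⟨i, rfl⟩ := hs a ha a1
  obtain ⟨j, rfl⟩ := hs b hb b1
  obtain ⟨k, rfl⟩ := hs c hc c1
  obtain ⟨l, hl⟩ := hs _ (W.mul_mem ha hb) ab1
  rw [← hl] at cab aba abb
  have h1 : i ≠ j := fun h => ab (by rw [h])
  have h2 : k ≠ i := fun h => ca (by rw [h])
  have h3 : k ≠ j := fun h => cb (by rw [h])
  have h4 : k ≠ l := fun h => cab (by rw [h])
  have h5 : l ≠ i := fun h => aba (by rw [h])
  have h6 : l ≠ j := fun h => abb (by rw [h])
  omega

/-- An element normalizing the four-group `W` and fixing `x` maps `v` to `v` or `v x`. -/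
theorem four_move {W : Subgroup G} (h4 : Nat.card W = 4) (ea : IsElementaryAbelian 2 W)
    {g x v : G} (hg : g ∈ normalizer (W : Set G)) (hx : x ∈ W) (x1 : x ≠ 1) (gx : g * x = x * g)
    (hv : v ∈ W) : g * v * g⁻¹ = v ∨ g * v * g⁻¹ = v * x := by
  by_cases v1 : v = 1
  · left; simp [v1]
  by_cases vx : v = x
  · left; rw [vx, gx]; simp
  rcases four_cases h4 ea hv hx v1 x1 vx (conj_mem_of_mem_normalizer hg hv) with h | h | h | h
  · exact absurd (by simpa using h) v1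
  · exact Or.inl h
  · refine absurd ?_ vx
    have : g * v * g⁻¹ = g * x * g⁻¹ := by rw [h, gx]; simp
    simpa using this
  · exact Or.inr h

theorem exists_third {W : Subgroup G} (h4 : Nat.card W = 4) (a : G) :
    ∃ b ∈ W, b ≠ 1 ∧ b ≠ a := by
  obtain ⟨e, φ, hi, hm, -, -, -⟩ := exists_perm h4
  by_cases h : e 0 = a
  · exact ⟨e 1, (hm 1).1, (hm 1).2, fun h' => absurd (hi (h.trans h'.symm)) (by decide)⟩
  · exact ⟨e 0, (hm 0).1, (hm 0).2, h⟩

theorem exists_odd_part [Finite G] (g : G) : ∃ n : ℕ, Odd (orderOf (g ^ 2 ^ n)) := by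
  obtain ⟨k, m, hm, e⟩ := Nat.exists_eq_two_pow_mul_odd (orderOf_pos g).ne'
  refine ⟨k, hm.of_dvd_nat (orderOf_dvd_of_pow_eq_one ?_)⟩
  rw [← pow_mul, ← e, pow_orderOf_eq_one]

theorem mem_cent_iff {g : G} {X : Subgroup G} :
    g ∈ centralizer (X : Set G) ↔ ∀ x ∈ X, g * x = x * g :=
  ⟨fun h x hx => (h x hx).symm, fun h x hx => (h x hx).symm⟩

theorem not_le_cent {X Y : Subgroup G} (h : ¬ X ≤ centralizer (Y : Set G)) :
    ∃ a ∈ X, a ∉ centralizer (Y : Set G) := SetLike.not_le_iff_exists.1 h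

/-! ### Points -/

/-- `x` is the point of the line `W` with respect to the Sylow subgroup `T`. -/
structure Pt (T W : Subgroup G) (x : G) : Prop where
  mem : x ∈ W
  ne : x ≠ 1
  zb : x ∈ om (JJ T)

theorem Pt.cj {T W : Subgroup G} {x : G} (h : Pt T W x) (g : G) :
    Pt (cj g T) (cj g W) (g * x * g⁻¹) :=
  ⟨conj_mem_map_conj h.mem, fun e => h.ne (by simpa using e), by
    rw [← cj_JJ, ← H72.NG.cj_om]; exact conj_mem_map_conj h.zb⟩

theorem Pt.bm {T W : Subgroup G} {x g : G} (h : Pt T W x) (hg : g ∈ Bm T) : g * x = x * g :=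
  (hg.2 x h.zb).symm

namespace Vx

variable {P T W W' : Subgroup G} (v : Vx P)
include v

theorem ea_ln (h : Ln P W) : IsElementaryAbelian 2 W :=
  H51.isEA_of_le v.ea h.1

theorem O_cent (h : Ln P W) : pCoreOf 2 P ≤ centralizer (W : Set G) :=
  v.cent.trans (centralizer_anti h.1)

theorem Z_cent (h : Ln P W) : Zv P ≤ centralizer (W : Set G) := v.le.trans (v.O_cent h)

theorem Z_le : Zv P ≤ P := v.le.trans (O_le P)

theorem ln_le (h : Ln P W) : W ≤ P := h.1.trans v.Z_le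

theorem ln_eq (h : Ln P W) (h' : Ln P W') {x : G} (hx : x ∈ W) (hx' : x ∈ W') (x1 : x ≠ 1) :
    W = W' := by
  by_contra hne
  have : x ∈ W ⊓ W' := ⟨hx, hx'⟩
  rw [v.disj W W' h h' hne] at this
  exact x1 this

theorem norm_of_fix (h : Ln P W) {g x : G} (hg : g ∈ P) (hx : x ∈ W) (x1 : x ≠ 1)
    (gx : g * x = x * g) : g ∈ normalizer (W : Set G) := by
  refine mem_normalizer_of_cj_eq (v.ln_eq (h.cj_mem hg) h ?_ hx x1)
  have := conj_mem_map_conj (g := g) hx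
  rwa [gx, mul_inv_cancel_right] at this

theorem other (h : Ln P W) (h' : Ln P W') (hne : W' ≠ W) {W'' : Subgroup G} (h'' : Ln P W'') :
    W'' = W ∨ W'' = W' := by
  rcases v.two _ _ _ h h' h'' with e | e | e
  · exact absurd e.symm hne
  · exact Or.inl e.symm
  · exact Or.inr e.symm

theorem norm_other (h : Ln P W) (h' : Ln P W') {g : G} (hg : g ∈ P)
    (hn : g ∈ normalizer (W : Set G)) : g ∈ normalizer (W' : Set G) := by
  by_cases e : W' = W
  · rwa [e]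
  rcases v.other h h' e (h'.cj_mem hg) with e' | e'
  · rw [← cj_eq_of_mem_normalizer hn] at e'
    exact absurd (cj_inj e') e
  · exact mem_normalizer_of_cj_eq e'

omit v in
theorem Cp_norm (h : Ln P W) : Cp P W ≤ normalizer (W : Set G) := (Cp_le_res P W).trans h.2.2.1

omit v in
theorem OCp_le (h : Ln P W) : pCoreOf 2 (Cp P W) ≤ pCoreOf 2 P :=
  (pCoreOf_le_pCoreOf_of_normal (Cp_le_res P W)
    (fun _ hg => norm_Cp (resOf_le _ _ hg) (h.2.2.1 hg))).trans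
    (pCoreOf_le_pCoreOf_of_normal (resOf_le _ _)
      (fun g hg => mem_normalizer_of_cj_eq (by
        rw [cj_resOf, cj_eq_of_mem_normalizer (le_normalizer hg)])))

variable [Finite G]

theorem exists_pt (hT : SylIn 2 T P) (h : Ln P W) : ∃ x, Pt T W x ∧
    ¬ Cp P W ≤ centralizer {x} ∧
    ∀ y ∈ om (JJ T), Cp P W ≤ centralizer {y} ∨ Cp P W ≤ centralizer {y * x} := by
  obtain ⟨d, e⟩ := v.dc T W hT h
  obtain ⟨-, -, -, -, -, -, -, x, h1, h2, h3, -, h4, h5⟩ := H82.NG.dc_basic d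
  rw [JJ_Bm] at h3 h5
  rw [e] at h1
  exact ⟨x, ⟨h1, h2, h3⟩, h4, h5⟩

theorem bm_not (hT : SylIn 2 T P) (h : Ln P W) : ¬ Bm T ≤ centralizer (W : Set G) := by
  obtain ⟨d, e⟩ := v.dc T W hT h
  obtain ⟨-, -, -, h1, h2, -⟩ := H82.NG.dc_basic d
  intro hle
  rw [e, inf_eq_left.2 hle] at h1
  rw [← h1, relIndex_self] at h2
  exact absurd h2 (by decide)

theorem bm_norm (hT : SylIn 2 T P) (h : Ln P W) : Bm T ≤ normalizer (W : Set G) := by
  obtain ⟨x, p, -⟩ := v.exists_pt hT h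
  exact fun g hg => v.norm_of_fix h (hT.le (Bm_le T hg)) p.mem p.ne (p.bm hg)

theorem OCp_bm (hT : SylIn 2 T P) (h : Ln P W) : pCoreOf 2 (Cp P W) ≤ Bm T := by
  obtain ⟨d, -⟩ := v.dc T W hT h
  exact le_of_sylIn_of_le_normalizer d.syl ((O_le _).trans le_sup_left) (pg_O _) (norm_O d.norm)

theorem pt_eq (hT : SylIn 2 T P) (h : Ln P W) {x y : G} (hx : Pt T W x) (hy : Pt T W y) :
    x = y := by
  by_contra hne
  exact v.bm_not hT h fun g hg =>
    four_fix_two h.2.1 hx.mem hy.mem hx.ne hy.ne hne (hx.bm hg) (hy.bm hg)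

theorem pt_fix (hT : SylIn 2 T P) (h : Ln P W) {x t : G} (hx : Pt T W x) (ht : t ∈ T)
    (hn : t ∈ normalizer (W : Set G)) : t * x = x * t := by
  have := hx.cj t
  rw [cj_eq_of_mem_normalizer (le_normalizer ht), cj_eq_of_mem_normalizer hn] at this
  exact conj_eq_iff.1 (v.pt_eq hT h this hx)

theorem pt_of_fix (hT : SylIn 2 T P) (h : Ln P W) {x t : G} (ht : t ∈ T)
    (hc : t ∉ centralizer (W : Set G)) (hx : x ∈ W) (x1 : x ≠ 1) (tx : t * x = x * t) :
    Pt T W x := by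
  obtain ⟨y, p, -⟩ := v.exists_pt hT h
  have hn := v.norm_of_fix h (hT.le ht) hx x1 tx
  by_cases e : x = y
  · rwa [e]
  exact absurd (four_fix_two h.2.1 hx p.mem x1 p.ne e tx (v.pt_fix hT h p ht hn)) hc

/-- Elements of the component outside its 2-core fix no point of the line. -/
theorem k_move (h : Ln P W) {k x : G} (hk : k ∈ Cp P W) (hk' : k ∉ pCoreOf 2 (Cp P W))
    (hx : x ∈ W) (x1 : x ≠ 1) : k * x ≠ x * k := by
  intro e
  obtain ⟨T, hT⟩ := exists_sylIn 2 P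
  obtain ⟨y, p, hy, -⟩ := v.exists_pt hT h
  have hO : pCoreOf 2 (Cp P W) ≤ centralizer (W : Set G) := (OCp_le h).trans (v.O_cent h)
  have := four_odd_fix h.2.1 (Cp_norm h hk) (n := 3) (by decide) (hO ((v.c3 W h).cube_mem hk))
    hx x1 e
  exact hy (((v.c3 W h).le_of_not_mem hO hk hk' this).trans (c_le_c1 p.mem))

theorem not_cent (h : Ln P W) {x : G} (hx : x ∈ W) (x1 : x ≠ 1) :
    ¬ Cp P W ≤ centralizer {x} := by
  obtain ⟨k, hk, hk'⟩ := (v.c3 W h).exists_not_mem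
  exact fun hle => v.k_move h hk hk' hx x1 (mem_c1.1 (hle hk))

theorem mem_of_fix (hT : SylIn 2 T P) {g : G} (hg : g ∈ P)
    (h : ∀ W x, Ln P W → Pt T W x → g * x = x * g) : g ∈ T := by
  refine v.stab T hT g hg fun W hW => mem_cent_iff.2 fun x hx => ?_
  by_cases x1 : x = 1
  · simp [x1]
  exact h W x hW ⟨hx.1, x1, hx.2⟩

/-- The component is generated by the Baumann subgroup and an element moving the point. -/
theorem gen_le (hT : SylIn 2 T P) (h : Ln P W) {H : Subgroup G} (hB : Bm T ≤ H) {w x : G}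
    (wH : w ∈ H) (wP : w ∈ P) (ww : w * w = 1) (wn : w ∈ normalizer (W : Set G))
    (wc : ∀ W', Ln P W' → W' ≠ W → w ∈ centralizer (W' : Set G)) (p : Pt T W x)
    (wx : w * x ≠ x * w) : Cp P W ≤ H := by
  obtain ⟨t, ht, tc⟩ := not_le_cent (v.bm_not hT h)
  have tn := v.bm_norm hT h ht
  have tx := p.bm ht
  have hne : ⁅t, w⁆ ∉ centralizer (W : Set G) := by
    intro hc
    have h1 : w⁻¹ * x * w ∈ W := conj_mem_of_mem_normalizer' wn p.mem
    have h2 : t * (w⁻¹ * x * w) = (w⁻¹ * x * w) * t := by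
      have h3 := mem_cent_iff.1 hc x p.mem
      have h4 : t⁻¹ * x * t = x := by rw [mul_assoc, ← tx]; simp
      have h5 : w * t⁻¹ * w⁻¹ * x = x * (w * t⁻¹ * w⁻¹) := by
        have : t * (w * t⁻¹ * w⁻¹ * x) = t * (x * (w * t⁻¹ * w⁻¹)) := by
          calc t * (w * t⁻¹ * w⁻¹ * x) = ⁅t, w⁆ * x := by rw [commutatorElement_def]; group
            _ = x * ⁅t, w⁆ := h3
            _ = x * t * (w * t⁻¹ * w⁻¹) := by rw [commutatorElement_def]; group
            _ = t * (x * (w * t⁻¹ * w⁻¹)) := by rw [← tx]; group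
        exact mul_left_cancel this
      calc t * (w⁻¹ * x * w) = t * w⁻¹ * (x * (w * t⁻¹ * w⁻¹)) * w * t := by group
        _ = t * w⁻¹ * (w * t⁻¹ * w⁻¹ * x) * w * t := by rw [h5]
        _ = (w⁻¹ * x * w) * t := by group
    refine tc (four_fix_two h.2.1 p.mem h1 p.ne (fun e => p.ne (by
      have : x = w * (w⁻¹ * x * w) * w⁻¹ := by group
      rw [this, e]; simp)) (fun e => wx ?_) tx h2)
    conv_lhs => rw [e]
    group
  obtain ⟨c3, c1⟩ := four_cube h.2.1 tn wn (four_fix h.2.1 tn tn p.mem p.ne tx tx).1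
    (by rw [ww]; exact one_mem _) hne
  obtain ⟨n, hn⟩ := exists_odd_part (t * w)
  have tP : t ∈ P := hT.le (Bm_le T ht)
  have hmem : (t * w) ^ 2 ^ n ∈ Cp P W := by
    refine mem_resOf (mem_Cp_inner.2 ⟨pow_mem (mul_mem tP wP) _, fun W' h' hne' => ?_⟩) hn
    obtain ⟨y, q, -⟩ := v.exists_pt hT h'
    have a1 : (t * w) * y = y * (t * w) := by
      rw [mul_assoc, mem_cent_iff.1 (wc W' h' hne') y q.mem, ← mul_assoc, q.bm ht, mul_assoc]
    refine four_odd_fix h'.2.1 (pow_mem (mul_mem (v.bm_norm hT h' ht)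
      (centralizer_le_normalizer' _ (wc W' h' hne'))) _) hn
      (by rw [pow_orderOf_eq_one]; exact one_mem _) q.mem q.ne ?_
    exact ((Commute.pow_left (a := t * w) (b := y) a1 _)).eq
  refine (v.c3 W h).le_of_not_mem ((v.OCp_bm hT h).trans hB) hmem (fun hO => c1 ?_)
    (pow_mem (mul_mem (hB ht) wH) _)
  exact mem_of_odd_pow (n := 3) (by decide) c3 (v.O_cent h (OCp_le h hO))

/-- If the 2-core of one component lies in a subgroup normalized by `T`, so does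
`O₂(O²(P))`. -/
theorem O_res_le (hT : SylIn 2 T P) (h : Ln P W) {Q : Subgroup G}
    (hn : T ≤ normalizer (Q : Set G)) (hQ : pCoreOf 2 (Cp P W) ≤ Q) :
    pCoreOf 2 (resOf 2 P) ≤ Q := by
  refine v.O_res.trans (iSup₂_le fun W' h' => ?_)
  obtain ⟨t, ht, rfl⟩ := v.trans T W W' hT h h'
  have := cj_mono (g := t) hQ
  rwa [cj_pCoreOf, cj_Cp, cj_eq_of_mem_normalizer (le_normalizer (hT.le ht)),
    cj_eq_of_mem_normalizer (hn ht)] at this

end Vx

/-! ### Critical pairs -/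

section Crit

variable {X Y W W' : Subgroup G}

theorem crit_norm (vX : Vx X) (vY : Vx Y) (h1 : Zv X ≤ Y) (h2 : Zv Y ≤ X) (l : Ln X W)
    (l' : Ln Y W') : W ≤ normalizer (W' : Set G) := by
  intro a ha
  by_contra hn
  have aZ : a ∈ Zv X := l.1 ha
  have aa : a * a = 1 := ea_sq vX.ea aZ
  have l2 : Ln Y (cj a W') := l'.cj_mem (h1 aZ)
  have hne : cj a W' ≠ W' := fun e => hn (mem_normalizer_of_cj_eq e)
  have nZ : W' ≤ normalizer (Zv X : Set G) :=
    (l'.1.trans h2).trans (le_normalizer.trans (norm_Zv X))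
  have dZ : ∀ w ∈ W', w * (a * w * a⁻¹) ∈ Zv X := fun w hw => by
    have ww : w * w = 1 := ea_sq (vY.ea_ln l') hw
    have : w * (a * w * a⁻¹) = (w * a * w⁻¹) * a⁻¹ := by
      rw [inv_eq_of_mul_eq_one_left ww]; group
    rw [this]
    exact mul_mem (conj_mem_of_mem_normalizer (nZ hw) aZ) (inv_mem aZ)
  have key : ∀ y ∈ Zv X, y ∈ normalizer (W' : Set G) → y ∈ centralizer (W' : Set G) := by
    intro y hy hyn
    have hyn2 := vY.norm_other l' l2 (h1 hy) hyn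
    refine mem_cent_iff.2 fun w hw => ?_
    have c := mem_cent_iff.1 (ea_le_c vX.ea hy) _ (dZ w hw)
    have m1 : w⁻¹ * (y * w * y⁻¹) ∈ W' := mul_mem (inv_mem hw) (conj_mem_of_mem_normalizer hyn hw)
    have m2 : w⁻¹ * (y * w * y⁻¹) ∈ cj a W' := by
      have : w⁻¹ * (y * w * y⁻¹) = (a * w * a⁻¹) * (y * (a * w * a⁻¹) * y⁻¹)⁻¹ := by
        calc w⁻¹ * (y * w * y⁻¹)
            = w⁻¹ * (y * (w * (a * w * a⁻¹))) * y⁻¹ * (y * (a * w * a⁻¹) * y⁻¹)⁻¹ := by group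
          _ = w⁻¹ * (w * (a * w * a⁻¹) * y) * y⁻¹ * (y * (a * w * a⁻¹) * y⁻¹)⁻¹ := by rw [c]
          _ = _ := by group
      rw [this]
      exact mul_mem (conj_mem_map_conj hw)
        (inv_mem (conj_mem_of_mem_normalizer hyn2 (conj_mem_map_conj hw)))
    have : w⁻¹ * (y * w * y⁻¹) ∈ cj a W' ⊓ W' := ⟨m2, m1⟩
    rw [vY.disj _ _ l2 l' hne, mem_bot] at this
    calc y * w = w * (w⁻¹ * (y * w * y⁻¹)) * y := by group
      _ = w * y := by rw [this, mul_one]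
  have a1 : a ≠ 1 := fun e => hn (e ▸ one_mem _)
  obtain ⟨a', ha', a'1, a'a⟩ := exists_third l.2.1 a
  obtain ⟨c, hc, c1, cc⟩ : ∃ c ∈ W, c ≠ 1 ∧ c ∈ centralizer (W' : Set G) := by
    rcases vY.other l' l2 hne (l'.cj_mem (h1 (l.1 ha'))) with e | e
    · exact ⟨a', ha', a'1, key a' (l.1 ha') (mem_normalizer_of_cj_eq e)⟩
    · refine ⟨a⁻¹ * a', mul_mem (inv_mem ha) ha', fun h => a'a (by
        rw [inv_mul_eq_one] at h; exact h.symm), key _ (l.1 (mul_mem (inv_mem ha) ha'))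
        (mem_normalizer_of_cj_eq ?_)⟩
      rw [← cj_cj, e, cj_inv_cj]
  have nW : W' ≤ normalizer (W : Set G) := fun w hw =>
    vX.norm_of_fix l (h2 (l'.1 hw)) hc c1 (mem_cent_iff.1 cc w hw).symm
  have dW : ∀ w ∈ W', w * (a * w * a⁻¹) ∈ W ⊓ Zv Y := fun w hw => by
    have ww : w * w = 1 := ea_sq (vY.ea_ln l') hw
    refine ⟨?_, mul_mem (l'.1 hw) (l2.1 (conj_mem_map_conj hw))⟩
    have : w * (a * w * a⁻¹) = (w * a * w⁻¹) * a⁻¹ := by
      rw [inv_eq_of_mul_eq_one_left ww]; group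
    rw [this]
    exact W.mul_mem (conj_mem_of_mem_normalizer (nW hw) ha) (W.inv_mem ha)
  have d1 : ∀ w ∈ W', ∀ w' ∈ W', w * (a * w * a⁻¹) = w' * (a * w' * a⁻¹) → w = w' := by
    intro w hw w' hw' e
    have : w'⁻¹ * w ∈ cj a W' ⊓ W' := by
      refine mem_inf.2 ⟨?_, W'.mul_mem (W'.inv_mem hw') hw⟩
      have : w'⁻¹ * w = (a * w' * a⁻¹) * (a * w * a⁻¹)⁻¹ := by
        calc w'⁻¹ * w = w'⁻¹ * (w * (a * w * a⁻¹)) * (a * w * a⁻¹)⁻¹ := by group
          _ = _ := by rw [e]; group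
      rw [this]
      exact mul_mem (conj_mem_map_conj hw') (inv_mem (conj_mem_map_conj hw))
    rw [vY.disj _ _ l2 l' hne, mem_bot, inv_mul_eq_one] at this
    exact this.symm
  obtain ⟨w, hw, w1, -⟩ := exists_third l'.2.1 1
  obtain ⟨w', hw', w'1, ww'⟩ := exists_third l'.2.1 w
  have := eq_of_card_four l.2.1 (inf_le_left : W ⊓ Zv Y ≤ W) (dW w hw) (dW w' hw')
    (fun e => w1 (d1 w hw 1 (one_mem _) (by simpa using e)))
    (fun e => w'1 (d1 w' hw' 1 (one_mem _) (by simpa using e)))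
    (fun e => ww' (d1 _ hw _ hw' e).symm)
  rw [← this] at ha
  exact hn (centralizer_le_normalizer' _ (vY.Z_cent l' ha.2))

theorem crit_pt (vX : Vx X) (vY : Vx Y) (h1 : Zv X ≤ Y) (h2 : Zv Y ≤ X) (l : Ln X W)
    (l' : Ln Y W') (hne : ¬ W ≤ centralizer (W' : Set G)) : ∃ x ∈ W, x ∈ W' ∧ x ≠ 1 := by
  obtain ⟨a, ha, hc⟩ := not_le_cent hne
  rw [mem_cent_iff] at hc
  push Not at hc
  obtain ⟨w, hw, hc⟩ := hc
  refine ⟨a * w * a⁻¹ * w⁻¹, ?_, mul_mem (conj_mem_of_mem_normalizer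
    (crit_norm vX vY h1 h2 l l' ha) hw) (inv_mem hw), fun e => hc ?_⟩
  · have : a * w * a⁻¹ * w⁻¹ = a * (w * a⁻¹ * w⁻¹) := by group
    rw [this]
    exact mul_mem ha (conj_mem_of_mem_normalizer (crit_norm vY vX h2 h1 l' l hw) (inv_mem ha))
  · calc a * w = a * w * a⁻¹ * w⁻¹ * (w * a) := by group
      _ = w * a := by rw [e, one_mul]

theorem crit_other (vX : Vx X) (vY : Vx Y) (h1 : Zv X ≤ Y) (h2 : Zv Y ≤ X) (l : Ln X W)
    (l' : Ln Y W') (hne : ¬ W ≤ centralizer (W' : Set G)) {W₂ : Subgroup G} (l₂ : Ln X W₂)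
    (e : W₂ ≠ W) : W' ≤ centralizer (W₂ : Set G) := by
  by_contra hn
  rw [le_centralizer_comm] at hn
  obtain ⟨x, hx, hx', x1⟩ := crit_pt vX vY h1 h2 l l' hne
  obtain ⟨y, hy, hy', y1⟩ := crit_pt vX vY h1 h2 l₂ l' hn
  have := eq_of_card_four l'.2.1 (inf_le_left : W' ⊓ Zv X ≤ W') ⟨hx', l.1 hx⟩ ⟨hy', l₂.1 hy⟩ x1 y1
    (fun h => e (vX.ln_eq l₂ l hy (h ▸ hx) y1))
  refine hne (le_centralizer_comm.1 ?_)
  rw [← this]
  exact inf_le_right.trans (vX.Z_cent l)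

theorem crit_lines (vX : Vx X) (vY : Vx Y) (h1 : Zv X ≤ Y) (h2 : Zv Y ≤ X)
    (h : ¬ Zv X ≤ pCoreOf 2 Y) :
    ∃ W W' : Subgroup G, Ln X W ∧ Ln Y W' ∧ ¬ W ≤ centralizer (W' : Set G) := by
  by_contra hn
  push Not at hn
  refine h fun a ha => vY.faith a (h1 ha) fun W' l' => ?_
  refine (vX.gen.trans (sup_le (iSup₂_le fun W l => hn W W' l l') ?_)) ha
  exact inf_le_right.trans (centralizer_anti (l'.1.trans h2))

end Crit

end Cfsg.Agent.H71.QA
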