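import Cfsg.Agent.H71.QB1

/-!
QA block C, part 2: walks, the shift lemma and the path of critical pairs.
-/

set_option autoImplicit false
set_option linter.unusedSectionVars false

namespace Cfsg.Agent.H71.QA

open Cfsg Cfsg.Agent.H98 Cfsg.Agent.H84 Cfsg.Agent.H71.NG Cfsg.Agent.H72.NG Subgroup
open scoped commutatorElement

variable {G : Type*} [Group G]

theorem Ed.O_le {X Y : Subgroup G} (e : Ed X Y) : pCoreOf 2 X ≤ Y :=
  (pCoreOf_le_of_sylIn e.syl).trans inf_le_right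

/-- A symmetric conjugation invariant set of edges. -/
structure Gr (R : Subgroup G → Subgroup G → Prop) : Prop where
  ed : ∀ {X Y}, R X Y → Ed X Y
  symm : ∀ {X Y}, R X Y → R Y X
  cj : ∀ {X Y} (g : G), R X Y → R (cj g X) (cj g Y)

/-- Walks of length `n`. -/
inductive Wk (R : Subgroup G → Subgroup G → Prop) : ℕ → Subgroup G → Subgroup G → Prop
  | nil {X Y : Subgroup G} : R X Y → Wk R 0 X X
  | cons {n : ℕ} {X Y Z : Subgroup G} : R X Y → Wk R n Y Z → Wk R (n + 1) X Z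

variable {R : Subgroup G → Subgroup G → Prop}

theorem Wk.snoc (gr : Gr R) {n : ℕ} {X Y Z : Subgroup G} (h : Wk R n X Y) (r : R Y Z) :
    Wk R (n + 1) X Z := by
  induction h with
  | nil _ => exact .cons r (.nil (gr.symm r))
  | cons r' _ ih => exact .cons r' (ih r)

theorem Wk.symm (gr : Gr R) {n : ℕ} {X Y : Subgroup G} (h : Wk R n X Y) : Wk R n Y X := by
  induction h with
  | nil r => exact .nil r
  | cons r _ ih => exact ih.snoc gr (gr.symm r)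

theorem Wk.trans {n m : ℕ} {X Y Z : Subgroup G} (h : Wk R n X Y) (h' : Wk R m Y Z) :
    Wk R (m + n) X Z := by
  induction h with
  | nil _ => exact h'
  | cons r _ ih => exact .cons r (ih h')

theorem Wk.cj (gr : Gr R) {n : ℕ} {X Y : Subgroup G} (h : Wk R n X Y) (g : G) :
    Wk R n (cj g X) (cj g Y) := by
  induction h with
  | nil r => exact .nil (gr.cj g r)
  | cons r _ ih => exact .cons (gr.cj g r) ih

theorem Wk.exists_fun (gr : Gr R) {n : ℕ} {X Y : Subgroup G} (h : Wk R n X Y) :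
    ∃ w : ℕ → Subgroup G, (∀ j, R (w j) (w (j + 1))) ∧ w 0 = X ∧ w n = Y := by
  induction h with
  | @nil X Y r =>
    refine ⟨fun j => if Even j then X else Y, fun j => ?_, by simp, by simp⟩
    by_cases hj : Even j
    · simp [hj, Nat.even_add_one, r]
    · simp [hj, Nat.even_add_one, gr.symm r]
  | @cons n X Y Z r _ ih =>
    obtain ⟨w, h1, h2, h3⟩ := ih
    refine ⟨fun j => Nat.casesOn j X w, fun j => ?_, rfl, h3⟩
    cases j with
    | zero => simpa [h2] using r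
    | succ j => exact h1 j

theorem wk_of_fun {w : ℕ → Subgroup G} (h : ∀ j, R (w j) (w (j + 1))) (i n : ℕ) :
    Wk R n (w i) (w (i + n)) := by
  induction n generalizing i with
  | zero => exact .nil (h i)
  | succ n ih =>
    refine .cons (h i) ?_
    have := ih (i + 1)
    rwa [show i + 1 + n = i + (n + 1) by omega] at this

/-- `b` is a lower bound for the critical distance. -/
def Mn (R : Subgroup G → Subgroup G → Prop) (b : ℕ) : Prop :=
  ∀ n < b, ∀ X Y : Subgroup G, Wk R n X Y → Zv X ≤ pCoreOf 2 Y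

/-- A critical pair `(w 0, w b)` with lines `W`, `W'` meeting in `x`. -/
structure CP (R : Subgroup G → Subgroup G → Prop) (b : ℕ) (w : ℕ → Subgroup G)
    (W W' : Subgroup G) (x : G) : Prop where
  walk : ∀ j, R (w j) (w (j + 1))
  l : Ln (w 0) W
  l' : Ln (w b) W'
  xl : x ∈ W
  xl' : x ∈ W'
  x1 : x ≠ 1
  ne : ¬ W ≤ centralizer (W' : Set G)

theorem Mn.fwd {b : ℕ} (mn : Mn R b) {w : ℕ → Subgroup G} (h : ∀ j, R (w j) (w (j + 1)))
    {i j : ℕ} (h1 : i ≤ j) (h2 : j < i + b) : Zv (w i) ≤ pCoreOf 2 (w j) := by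
  obtain ⟨n, rfl⟩ := Nat.exists_eq_add_of_le h1
  exact mn n (by omega) _ _ (wk_of_fun h i n)

theorem Mn.bwd (gr : Gr R) {b : ℕ} (mn : Mn R b) {w : ℕ → Subgroup G}
    (h : ∀ j, R (w j) (w (j + 1))) {i j : ℕ} (h1 : i ≤ j) (h2 : j < i + b) :
    Zv (w j) ≤ pCoreOf 2 (w i) := by
  obtain ⟨n, rfl⟩ := Nat.exists_eq_add_of_le h1
  exact mn n (by omega) _ _ ((wk_of_fun h i n).symm gr)

theorem exists_cp (gr : Gr R) {b : ℕ} (mn : Mn R (b + 1)) {w : ℕ → Subgroup G}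
    (h : ∀ j, R (w j) (w (j + 1))) (hc : ¬ Zv (w 0) ≤ pCoreOf 2 (w (b + 1))) :
    ∃ (W W' : Subgroup G) (x : G), CP R (b + 1) w W W' x := by
  have v0 := (gr.ed (h 0)).v
  have vb := (gr.ed (h b)).v'
  have h1 : Zv (w 0) ≤ w (b + 1) :=
    (mn.fwd h (Nat.zero_le b) (by omega)).trans (gr.ed (h b)).O_le
  have h2 : Zv (w (b + 1)) ≤ w 0 :=
    (mn.bwd gr h (i := 1) (by omega) (by omega)).trans (gr.ed (h 0)).symm.O_le
  obtain ⟨W, W', l, l', ne⟩ := crit_lines v0 vb h1 h2 hc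
  obtain ⟨x, a1, a2, a3⟩ := crit_pt v0 vb h1 h2 l l' ne
  exact ⟨W, W', x, h, l, l', a1, a2, a3, ne⟩

variable [Finite G]

theorem comm_mem_sup {A B N : Subgroup G} {t : G} (hA : ∀ a ∈ A, ⁅a, t⁆ ∈ N)
    (hB : ∀ a ∈ B, ⁅a, t⁆ ∈ N) (hAn : A ≤ normalizer (N : Set G))
    (hBn : B ≤ normalizer (N : Set G)) : ∀ u ∈ A ⊔ B, ⁅u, t⁆ ∈ N := by
  let S : Subgroup G :=
    { carrier := {u | u ∈ normalizer (N : Set G) ∧ ⁅u, t⁆ ∈ N}
      one_mem' := ⟨one_mem _, by simp⟩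
      mul_mem' := by
        rintro a b ⟨ha, ha'⟩ ⟨hb, hb'⟩
        refine ⟨mul_mem ha hb, ?_⟩
        have : ⁅a * b, t⁆ = a * ⁅b, t⁆ * a⁻¹ * ⁅a, t⁆ := by
          simp only [commutatorElement_def]; group
        rw [this]
        exact mul_mem (conj_mem_of_mem_normalizer ha hb') ha'
      inv_mem' := by
        rintro a ⟨ha, ha'⟩
        refine ⟨inv_mem ha, ?_⟩
        have : ⁅a⁻¹, t⁆ = a⁻¹ * ⁅a, t⁆⁻¹ * a := by
          simp only [commutatorElement_def]; group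
        rw [this]
        exact conj_mem_of_mem_normalizer' ha (inv_mem ha') }
  have : A ⊔ B ≤ S := sup_le (fun a ha => ⟨hAn ha, hA a ha⟩) (fun a ha => ⟨hBn ha, hB a ha⟩)
  exact fun u hu => (this hu).2

theorem shift_aux {α β W : Subgroup G} (e : Ed α β) (l : Ln α W) {k x t : G} (hk : k ∈ Cp α W)
    (hk' : k ∉ pCoreOf 2 (Cp α W)) (hx : x ∈ W) (x1 : x ≠ 1) (tn : t ∈ normalizer (W : Set G))
    (tc : t ∉ centralizer (W : Set G)) (tx : t * x = x * t)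
    (gen : ∀ H : Subgroup G, Bm (α ⊓ cj k β) ≤ H → t ∈ H → Cp α W ≤ H)
    (g2 : Zv (cj k β) ≤ centralizer (W : Set G)) (g3 : ∀ y ∈ Zv (cj k β), ⁅y, t⁆ ∈ W)
    (tα : t ∈ α) : W ≤ Zv β := by
  have v := e.v
  have c3 := v.c3 W l
  have kα : k ∈ α := Cp_le _ _ hk
  have kn : k ∈ normalizer (W : Set G) := Vx.Cp_norm l hk
  have hO : pCoreOf 2 (Cp α W) ≤ centralizer (W : Set G) := (Vx.OCp_le l).trans (v.O_cent l)
  have hsyl : SylIn 2 (α ⊓ cj k β) α := by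
    have := e.syl.map_conj_of_mem kα
    rwa [show (α ⊓ β).map (MulAut.conj k).toMonoidHom = cj k α ⊓ cj k β from cj_inf k α β,
      cj_eq_of_mem_normalizer (le_normalizer kα)] at this
  obtain ⟨U, hU⟩ : ∃ U, U = Zv (cj k β) ⊔ W := ⟨_, rfl⟩
  have WU : W ≤ U := hU ▸ le_sup_right
  have g4 : ∀ u ∈ U, ⁅u, t⁆ ∈ W := hU ▸ comm_mem_sup g3
    (fun a ha => by
      have : ⁅a, t⁆ = a * (t * a⁻¹ * t⁻¹) := by rw [commutatorElement_def]; group
      rw [this]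
      exact mul_mem ha (conj_mem_of_mem_normalizer tn (inv_mem ha)))
    (g2.trans (centralizer_le_normalizer' _)) le_normalizer
  have tU : t ∈ normalizer (U : Set G) := by
    refine mem_norm_of_cj_le ?_
    rintro _ ⟨u, hu, rfl⟩
    have : (MulAut.conj t).toMonoidHom u = ⁅u, t⁆⁻¹ * u := by
      simp [commutatorElement_def, mul_assoc]
    rw [this]
    exact mul_mem (inv_mem (WU (g4 u hu))) hu
  have nU : Cp α W ≤ normalizer (U : Set G) := gen _ (hU ▸ le_normalizer_sup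
    (((Bm_le _).trans inf_le_right).trans (le_normalizer.trans (norm_Zv _))) (v.bm_norm hsyl l)) tU
  have nD := H53.le_normalizer_commStab WU nU (Vx.Cp_norm l)
  have tD : t ∈ H53.commStab U W WU := ⟨tU, g4⟩
  have kD : Cp α W ≤ H53.commStab U W WU := by
    refine c3.le_of_normal ((O_le _).trans nD) (k := ⁅k, t⁆) ?_ (fun hc => ?_) ?_
    · have : ⁅k, t⁆ = k * (t * k⁻¹ * t⁻¹) := by rw [commutatorElement_def]; group
      rw [this]
      exact mul_mem hk (conj_mem_of_mem_normalizer (norm_Cp tα tn) (inv_mem hk))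
    · have h1 : k⁻¹ * x * k ∈ W := conj_mem_of_mem_normalizer' kn hx
      have h3 := mem_cent_iff.1 (hO hc) x hx
      have h2 : t * (k⁻¹ * x * k) = (k⁻¹ * x * k) * t := by
        calc t * (k⁻¹ * x * k) = k⁻¹ * ⁅k, t⁆ * (t * x) * k := by
              rw [commutatorElement_def]; group
          _ = k⁻¹ * (⁅k, t⁆ * x) * (t * k) := by rw [tx]; group
          _ = k⁻¹ * (x * ⁅k, t⁆) * (t * k) := by rw [h3]
          _ = (k⁻¹ * x * k) * t := by rw [commutatorElement_def]; group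
      refine tc (four_fix_two l.2.1 hx h1 x1 (fun e => x1 (by
        have : x = k * (k⁻¹ * x * k) * k⁻¹ := by group
        rw [this, e]; simp)) (fun e => v.k_move l hk hk' hx x1 ?_) tx h2)
      conv_lhs => rw [e]
      group
    · have : ⁅k, t⁆ = (k * t * k⁻¹) * t⁻¹ := by rw [commutatorElement_def]
      rw [this]
      exact mul_mem (conj_mem_of_mem_normalizer (nD hk) tD) (inv_mem tD)
  have βU : Zv β ≤ U := by
    have : cj k⁻¹ (Zv (cj k β)) ≤ U := cj_le_of (hU ▸ le_sup_left) (inv_mem (nU hk))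
    rwa [cj_Zv, cj_inv_cj] at this
  have hR : pCoreOf 2 (Cp α W) ≤ β := (Vx.OCp_le l).trans e.O_le
  have hn : ¬ pCoreOf 2 (Cp α W) ≤ centralizer (Zv β : Set G) := fun hle =>
    e.R (v.O_res_le e.syl l (inf_le_right.trans (le_normalizer_pCoreOf 2 β)) fun r hr =>
      e.v'.faith r (hR hr) fun W' l' => centralizer_anti l'.1 (hle hr))
  obtain ⟨r, hr, rc⟩ := not_le_cent hn
  rw [mem_cent_iff] at rc
  push Not at rc
  obtain ⟨y, hy, rc⟩ := rc
  have sZ : ∀ r ∈ pCoreOf 2 (Cp α W), ⁅y, r⁆ ∈ Zv β := fun r hr => by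
    have : ⁅y, r⁆ = y * (r * y⁻¹ * r⁻¹) := by rw [commutatorElement_def]; group
    rw [this]
    exact mul_mem hy (conj_mem_of_mem_normalizer (norm_Zv _ (le_normalizer (hR hr))) (inv_mem hy))
  have s1 : ⁅y, r⁆ ≠ 1 := fun e => rc (commutatorElement_eq_one_iff_mul_comm.1 e).symm
  have sW : ⁅y, r⁆ ∈ W := (kD (O_le _ hr)).2 y (βU hy)
  have r' : k * r * k⁻¹ ∈ pCoreOf 2 (Cp α W) :=
    conj_mem_of_mem_normalizer (le_normalizer_pCoreOf 2 _ hk) hr
  have s2 : k * ⁅y, r⁆ * k⁻¹ = ⁅y, k * r * k⁻¹⁆ := by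
    have a1 : ⁅y⁻¹, k⁆ ∈ W := (kD hk).2 _ (inv_mem (βU hy))
    have a2 := mem_cent_iff.1 (hO r') _ a1
    calc k * ⁅y, r⁆ * k⁻¹ = y * (⁅y⁻¹, k⁆ * (k * r * k⁻¹)) * ⁅y⁻¹, k⁆⁻¹ * y⁻¹ * (k * r * k⁻¹)⁻¹ := by
          simp only [commutatorElement_def]; group
      _ = y * (k * r * k⁻¹ * ⁅y⁻¹, k⁆) * ⁅y⁻¹, k⁆⁻¹ * y⁻¹ * (k * r * k⁻¹)⁻¹ := by rw [a2]
      _ = _ := by simp only [commutatorElement_def]; group
  have := eq_of_card_four l.2.1 (inf_le_left : W ⊓ Zv β ≤ W) ⟨sW, sZ r hr⟩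
    ⟨conj_mem_of_mem_normalizer kn sW, s2 ▸ sZ _ r'⟩ s1 (fun e => s1 (by simpa using e))
    (fun e => v.k_move l hk hk' sW s1 (conj_eq_iff.1 e.symm))
  rw [← this]
  exact inf_le_right

theorem shift (gr : Gr R) {b : ℕ} (mn : Mn R (b + 2)) {w : ℕ → Subgroup G} {W W' : Subgroup G}
    {x : G} (c : CP R (b + 2) w W W' x) :
    ∃ k ∈ Cp (w 0) W, k ∉ pCoreOf 2 (Cp (w 0) W) ∧ k ^ 3 = 1 ∧
      ∃ (W₁ W₁' : Subgroup G) (x₁ : G),
        CP R (b + 2) (fun j => Nat.casesOn j (cj k (w 1)) w) W₁ W₁' x₁ ∧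
        Cp (w 0) W ≤ centralizer {x₁} := by
  have h := c.walk
  have e := gr.ed (h 0)
  have v0 := e.v
  have vb := (gr.ed (h (b + 1))).v'
  have h1 : Zv (w 0) ≤ w (b + 2) :=
    (mn.fwd h (Nat.zero_le (b + 1)) (by omega)).trans (gr.ed (h (b + 1))).O_le
  have h2' : Zv (w (b + 2)) ≤ pCoreOf 2 (w 1) := mn.bwd gr h (i := 1) (by omega) (by omega)
  have h2 : Zv (w (b + 2)) ≤ w 0 := h2'.trans e.symm.O_le
  obtain ⟨k, hk, hk', k3⟩ := (v0.c3 W c.l).exists_three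
  have k0 : k ∈ w 0 := Cp_le _ _ hk
  have kn : k ∈ normalizer (W : Set G) := Vx.Cp_norm c.l hk
  have ek : cj k (w 0) = w 0 := cj_eq_of_mem_normalizer (le_normalizer k0)
  have r' : R (cj k (w 1)) (w 0) := by
    have := gr.cj k (gr.symm (h 0))
    rwa [ek] at this
  have hw : ∀ j, R ((fun j => Nat.casesOn j (cj k (w 1)) w : ℕ → Subgroup G) j)
      ((fun j => Nat.casesOn j (cj k (w 1)) w : ℕ → Subgroup G) (j + 1)) := fun j => by
    cases j with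
    | zero => exact r'
    | succ j => exact h j
  have e' := (gr.ed r').symm
  obtain ⟨t, ht, tc⟩ := not_le_cent (fun hle => c.ne (le_centralizer_comm.1 hle) :
    ¬ W' ≤ centralizer (W : Set G))
  have tZ := c.l'.1 ht
  have tt : t * t = 1 := ea_sq vb.ea tZ
  have tx : t * x = x * t := mem_cent_iff.1 (vb.Z_cent c.l' tZ) x c.xl'
  have tn : W' ≤ normalizer (W : Set G) := crit_norm vb v0 h2 h1 c.l' c.l
  have px : Pt (w 0 ⊓ w 1) W x :=
    v0.pt_of_fix e.syl c.l ⟨h2 tZ, O_le _ (h2' tZ)⟩ tc c.xl c.x1 tx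
  have pq : Pt (w 0 ⊓ cj k (w 1)) W (k * x * k⁻¹) := by
    have := px.cj k
    rwa [cj_inf, ek, cj_eq_of_mem_normalizer kn] at this
  have qx : k * x * k⁻¹ ≠ x := fun e => v0.k_move c.l hk hk' c.xl c.x1 (conj_eq_iff.1 e)
  have tq : t * (k * x * k⁻¹) ≠ (k * x * k⁻¹) * t := fun e =>
    tc (four_fix_two c.l.2.1 c.xl pq.mem c.x1 pq.ne qx.symm tx e)
  have gen : ∀ H : Subgroup G, Bm (w 0 ⊓ cj k (w 1)) ≤ H → t ∈ H → Cp (w 0) W ≤ H :=
    fun H hB hH => v0.gen_le e'.syl c.l hB hH (h2 tZ) tt (tn ht)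
      (fun W₂ l₂ hne => crit_other v0 vb h1 h2 c.l c.l' c.ne l₂ hne ht) pq tq
  have hcrit : ¬ Zv (cj k (w 1)) ≤ pCoreOf 2 (w (b + 1)) := by
    intro hle
    have g1 : Zv (cj k (w 1)) ≤ w (b + 2) := hle.trans (gr.ed (h (b + 1))).O_le
    have g2 : Zv (cj k (w 1)) ≤ centralizer (W : Set G) :=
      (mn.fwd hw (i := 0) (j := 1) (by omega) (by omega)).trans (v0.O_cent c.l)
    have g3 : ∀ y ∈ Zv (cj k (w 1)), ∀ s ∈ W', ⁅y, s⁆ ∈ W := by
      intro y hy s hs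
      have yx := mem_cent_iff.1 (g2 hy) x c.xl
      have ss : s * s = 1 := ea_sq (vb.ea_ln c.l') hs
      rcases four_move c.l'.2.1 (vb.ea_ln c.l')
        (vb.norm_of_fix c.l' (g1 hy) c.xl' c.x1 yx) c.xl' c.x1 yx hs with e | e
      · rw [commutatorElement_def, e]; simp
      · rw [commutatorElement_def, e, mem_cent_iff.1 (vb.Z_cent c.l' (c.l'.1 hs)) x c.xl']
        simpa using c.xl
    have := shift_aux e c.l hk hk' c.xl c.x1 (tn ht) tc tx gen g2 (fun y hy => g3 y hy t ht)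
      (h2 tZ)
    exact c.ne ((this.trans (mn.fwd h (i := 1) (j := b + 2) (by omega) (by omega))).trans
      (vb.O_cent c.l'))
  obtain ⟨W₁, W₁', x₁, c₁⟩ := exists_cp gr mn hw hcrit
  refine ⟨k, hk, hk', by rw [← k3, pow_orderOf_eq_one], W₁, W₁', x₁, c₁, gen _ ?_ ?_⟩
  · have v1 := (gr.ed r').v
    have vb' := (gr.ed (h b)).v'
    obtain ⟨s, hs, sc⟩ := not_le_cent (fun hle => c₁.ne (le_centralizer_comm.1 hle) :
      ¬ W₁' ≤ centralizer (W₁ : Set G))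
    have sZ : s ∈ pCoreOf 2 (w 0) := mn.bwd gr h (i := 0) (j := b + 1) (by omega) (by omega)
      (c₁.l'.1 hs)
    have p1 : Pt (cj k (w 1) ⊓ w 0) W₁ x₁ :=
      v1.pt_of_fix (gr.ed r').syl c₁.l ⟨e'.O_le sZ, O_le _ sZ⟩ sc c₁.xl c₁.x1
        (mem_cent_iff.1 (vb'.Z_cent c₁.l' (c₁.l'.1 hs)) x₁ c₁.xl')
    rw [inf_comm]
    exact fun g hg => mem_c1.2 (p1.bm hg)
  · have vb' := (gr.ed (h b)).v'
    exact mem_c1.2 (mem_cent_iff.1 (vb'.O_cent c₁.l'
      (mn.bwd gr h (i := b + 1) (j := b + 2) (by omega) (by omega) tZ)) x₁ c₁.xl')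

/-- A path of critical pairs `(δ i, δ (i + b))`, `i ≤ 0`, obtained by repeated shifting. -/
structure Pth (R : Subgroup G → Subgroup G → Prop) (b : ℕ) (δ ℓ m : ℤ → Subgroup G)
    (x k : ℤ → G) : Prop where
  walk : ∀ i j, j = i + 1 → R (δ i) (δ j)
  l : ∀ i ≤ 0, Ln (δ i) (ℓ i)
  l' : ∀ i : ℤ, i ≤ 0 → ∀ j : ℤ, j = i + b → Ln (δ j) (m i)
  xl : ∀ i ≤ 0, x i ∈ ℓ i
  xm : ∀ i ≤ 0, x i ∈ m i
  x1 : ∀ i ≤ 0, x i ≠ 1
  ne : ∀ i ≤ 0, ¬ ℓ i ≤ centralizer (m i : Set G)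
  kmem : ∀ i ≤ 0, k i ∈ Cp (δ i) (ℓ i)
  knot : ∀ i ≤ 0, k i ∉ pCoreOf 2 (Cp (δ i) (ℓ i))
  k3 : ∀ i ≤ 0, k i ^ 3 = 1
  turn : ∀ i ≤ 0, ∀ h j, h = i - 1 → j = i + 1 → δ h = cj (k i) (δ j)
  cx : ∀ i ≤ 0, ∀ h, h = i - 1 → Cp (δ i) (ℓ i) ≤ centralizer {x h}

theorem exists_pth (gr : Gr R) {b : ℕ} (mn : Mn R (b + 2)) {w : ℕ → Subgroup G}
    {W W' : Subgroup G} {x : G} (c : CP R (b + 2) w W W' x) :
    ∃ (δ ℓ m : ℤ → Subgroup G) (x k : ℤ → G), Pth R (b + 2) δ ℓ m x k := by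
  let St := {s : (ℕ → Subgroup G) × Subgroup G × Subgroup G × G //
    CP R (b + 2) s.1 s.2.1 s.2.2.1 s.2.2.2}
  have step : ∀ s : St, ∃ (k : G) (s' : St), k ∈ Cp (s.1.1 0) s.1.2.1 ∧
      k ∉ pCoreOf 2 (Cp (s.1.1 0) s.1.2.1) ∧ k ^ 3 = 1 ∧ s'.1.1 0 = cj k (s.1.1 1) ∧
      (∀ j, s'.1.1 (j + 1) = s.1.1 j) ∧ Cp (s.1.1 0) s.1.2.1 ≤ centralizer {s'.1.2.2.2} := by
    intro s
    obtain ⟨k, h1, h2, h3, W₁, W₁', x₁, c₁, h4⟩ := shift gr mn s.2
    exact ⟨k, ⟨⟨_, W₁, W₁', x₁⟩, c₁⟩, h1, h2, h3, rfl, fun _ => rfl, h4⟩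
  choose f g h1 h2 h3 h4 h5 h6 using step
  let S : ℕ → St := fun n => g^[n] ⟨⟨w, W, W', x⟩, c⟩
  have hS : ∀ n, S (n + 1) = g (S n) := fun n => Function.iterate_succ_apply' g n _
  have hS' : ∀ n j, (S (n + j)).1.1 j = (S n).1.1 0 := by
    intro n j
    induction j with
    | zero => rfl
    | succ j ih => rw [← add_assoc, hS, h5, ih]
  have hS'' : ∀ n j, (S n).1.1 (j + n) = (S 0).1.1 j := by
    intro n j
    induction n with
    | zero => rfl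
    | succ n ih => rw [← add_assoc, hS, h5, ih]
  let δ : ℤ → Subgroup G := fun i => if i ≤ 0 then (S (-i).toNat).1.1 0 else (S 0).1.1 i.toNat
  have hδ : ∀ (n j : ℕ) (i : ℤ), i = j - n → δ i = (S n).1.1 j := by
    intro n j i hi
    by_cases h : i ≤ 0
    · simp only [δ, if_pos h]
      rw [← hS' (-i).toNat j, show (-i).toNat + j = n by omega]
    · simp only [δ, if_neg h]
      rw [← hS'' n i.toNat, show i.toNat + n = j by omega]
  refine ⟨δ, fun i : ℤ => (S (-i).toNat).1.2.1, fun i : ℤ => (S (-i).toNat).1.2.2.1,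
    fun i : ℤ => (S (-i).toNat).1.2.2.2, fun i : ℤ => f (S (-i).toNat), ?_, ?_, ?_, ?_, ?_, ?_, ?_, ?_,
    ?_, ?_, ?_, ?_⟩
  · intro i j hj
    rw [hδ (-i).toNat i.toNat i (by omega), hδ (-i).toNat (i.toNat + 1) j (by omega)]
    exact (S _).2.walk _
  · intro i hi
    rw [hδ (-i).toNat 0 i (by omega)]
    exact (S _).2.l
  · intro i hi j hj
    rw [hδ (-i).toNat (b + 2) j (by omega)]
    exact (S _).2.l'
  · exact fun i _ => (S _).2.xl
  · exact fun i _ => (S _).2.xl'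
  · exact fun i _ => (S _).2.x1
  · exact fun i _ => (S _).2.ne
  · intro i hi
    rw [hδ (-i).toNat 0 i (by omega)]
    exact h1 _
  · intro i hi
    rw [hδ (-i).toNat 0 i (by omega)]
    exact h2 _
  · exact fun i _ => h3 _
  · intro i hi h j hh hj
    rw [hδ ((-i).toNat + 1) 0 h (by omega), hδ (-i).toNat 1 j (by omega), hS]
    exact h4 _
  · intro i hi h hh
    rw [hδ (-i).toNat 0 i (by omega), show (-h).toNat = (-i).toNat + 1 by omega, hS]
    exact h6 _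

end Cfsg.Agent.H71.QA
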