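import Cfsg.Agent.H71.QB2

/-!
QA block C, part 3: turning around a vertex.
-/

set_option autoImplicit false
set_option linter.unusedSectionVars false

namespace Cfsg.Agent.H71.QA

open Cfsg Cfsg.Agent.H98 Cfsg.Agent.H84 Cfsg.Agent.H71.NG Cfsg.Agent.H72.NG Subgroup
open scoped commutatorElement

variable {G : Type*} [Group G] [Finite G]

theorem res_sup {T P : Subgroup G} (h : SylIn 2 T P) : resOf 2 P ⊔ T = P := by
  obtain ⟨S, hS⟩ := h.exists_sylow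
  have := congrArg (Subgroup.map P.subtype) (H8.sylow_sup_pResidual S)
  rw [Subgroup.map_sup, hS, map_subgroupOf_eq_of_le h.le, ← MonoidHom.range_eq_map,
    range_subtype, sup_comm] at this
  exact this

omit [Finite G] in
theorem cj_eq_cj {a b : G} {X : Subgroup G} (h : b⁻¹ * a ∈ normalizer (X : Set G)) :
    cj a X = cj b X := by
  conv_rhs => rw [← cj_eq_of_mem_normalizer h, cj_cj, mul_inv_cancel_left]

/-- `k` turns the neighbour `β` of `α` along the line `W` with point `p`; `c` is a transvection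
on `W` with centre `p`. -/
structure Tn (α β W : Subgroup G) (k p c : G) : Prop where
  e : Ed α β
  l : Ln α W
  hk : k ∈ Cp α W
  hk' : k ∉ pCoreOf 2 (Cp α W)
  pt : Pt (α ⊓ β) W p
  cα : c ∈ α
  cc : c ∉ centralizer (W : Set G)
  cp : c * p = p * c
  co : ∀ W', Ln α W' → W' ≠ W → c ∈ centralizer (W' : Set G)

theorem turn_ed {α β W : Subgroup G} {k : G} (e : Ed α β) (hk : k ∈ Cp α W) :
    Ed α (cj k β) := by
  have := e.cj k
  rwa [cj_eq_of_mem_normalizer (le_normalizer (Cp_le _ _ hk))] at this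

theorem turn_pt {α β W L : Subgroup G} {k y : G} (hk : k ∈ Cp α W) (p : Pt (α ⊓ β) L y) :
    Pt (α ⊓ cj k β) (cj k L) (k * y * k⁻¹) := by
  have := p.cj k
  rwa [cj_inf, cj_eq_of_mem_normalizer (le_normalizer (Cp_le _ _ hk))] at this

theorem turn_oth {α β W L : Subgroup G} {k y : G} (hk : k ∈ Cp α W) (l : Ln α L) (hne : L ≠ W)
    (p : Pt (α ⊓ β) L y) : Pt (α ⊓ cj k β) L y := by
  have h := Cp_le_cent l hne hk
  have := turn_pt hk p
  rwa [cj_eq_of_mem_normalizer (centralizer_le_normalizer' _ h),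
    conj_eq_iff.2 (mem_cent_iff.1 h y p.mem)] at this

theorem turn_oth' {α β W L : Subgroup G} {k y : G} (hk : k ∈ Cp α W) (l : Ln α L) (hne : L ≠ W)
    (p : Pt (α ⊓ cj k β) L y) : Pt (α ⊓ β) L y := by
  have := turn_oth (inv_mem hk) l hne p
  rwa [cj_inv_cj] at this

namespace Tn

variable {α β W : Subgroup G} {k p c : G} (s : Tn α β W k p c)
include s

theorem e' : Ed α (cj k β) := turn_ed s.e s.hk

theorem kα : k ∈ α := Cp_le _ _ s.hk

theorem kn : k ∈ normalizer (W : Set G) := Vx.Cp_norm s.l s.hk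

theorem cn : c ∈ normalizer (W : Set G) := s.e.v.norm_of_fix s.l s.cα s.pt.mem s.pt.ne s.cp

theorem ptq : Pt (α ⊓ cj k β) W (k * p * k⁻¹) := by
  have := turn_pt s.hk s.pt
  rwa [cj_eq_of_mem_normalizer s.kn] at this

theorem qp : k * p * k⁻¹ ≠ p := fun e =>
  s.e.v.k_move s.l s.hk s.hk' s.pt.mem s.pt.ne (conj_eq_iff.1 e)

theorem pp : p * p = 1 := ea_sq (s.e.v.ea_ln s.l) s.pt.mem

theorem pq : p * (k * p * k⁻¹) = (k * p * k⁻¹) * p :=
  mem_cent_iff.1 (ea_le_c (s.e.v.ea_ln s.l) s.pt.mem) _ s.ptq.mem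

theorem cq : c * (k * p * k⁻¹) * c⁻¹ = k * p * k⁻¹ * p := by
  rcases four_move s.l.2.1 (s.e.v.ea_ln s.l) s.cn s.pt.mem s.pt.ne s.cp s.ptq.mem with e | e
  · exact absurd (four_fix_two s.l.2.1 s.pt.mem s.ptq.mem s.pt.ne s.ptq.ne s.qp.symm s.cp
      (conj_eq_iff.1 e)) s.cc
  · exact e

theorem kq : k * (k * p * k⁻¹) * k⁻¹ = k * p * k⁻¹ * p := by
  have c3 := s.e.v.c3 W s.l
  rcases four_cases s.l.2.1 (s.e.v.ea_ln s.l) s.ptq.mem s.pt.mem s.ptq.ne s.pt.ne s.qp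
    (conj_mem_of_mem_normalizer s.kn s.ptq.mem) with e | e | e | e
  · exact absurd (by simpa using e) s.pt.ne
  · exact absurd (conj_eq_iff.1 e) (s.e.v.k_move s.l s.hk s.hk' s.ptq.mem s.ptq.ne)
  · refine absurd (?_ : k * k * p = p * (k * k)) (s.e.v.k_move s.l (mul_mem s.hk s.hk)
      (fun h => s.hk' ?_) s.pt.mem s.pt.ne)
    · conv_rhs => rw [← e]
      group
    · have h3 := c3.cube_mem s.hk
      have : k = k ^ 3 * (k * k)⁻¹ := by group
      rw [this]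
      exact mul_mem h3 (inv_mem h)
  · exact e

theorem fix {h : G} (hα : h ∈ α) (hq : h * (k * p * k⁻¹) * h⁻¹ = k * p * k⁻¹)
    (ho : ∀ L y, Ln α L → L ≠ W → Pt (α ⊓ β) L y → h * y = y * h) : h ∈ cj k β := by
  refine (s.e.v.mem_of_fix s.e'.syl hα fun L y l py => ?_).2
  by_cases e : L = W
  · subst e
    rw [s.e.v.pt_eq s.e'.syl l py s.ptq]
    exact conj_eq_iff.1 hq
  · exact ho L y l e (turn_oth' s.hk l e py)

theorem turn2 {L L' : Subgroup G} {x v : G} (l : Ln (cj k β) L) (l' : Ln β L') (px : Pt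
    (α ⊓ cj k β) L x) (xl' : x ∈ L') (cx : c * x = x * c) (hL : L ≤ β) (hv : v ∈ L)
    (vc : v ∉ centralizer (L' : Set G)) : ⁅v, c * v * c⁻¹⁆ = x := by
  have vα := s.e.v
  have vβ := s.e.v'
  have vγ := s.e'.v'
  obtain ⟨g, hg, gc⟩ := not_le_cent (vα.bm_not s.e'.syl s.l)
  have gα : g ∈ α := (Bm_le _ hg).1
  have gγ : g ∈ cj k β := (Bm_le _ hg).2
  have gq := s.ptq.bm hg
  have gx := px.bm hg
  have gp : g * p * g⁻¹ = p * (k * p * k⁻¹) := by
    rcases four_move s.l.2.1 (vα.ea_ln s.l) (vα.bm_norm s.e'.syl s.l hg) s.ptq.mem s.ptq.ne gq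
      s.pt.mem with e | e
    · exact absurd (four_fix_two s.l.2.1 s.pt.mem s.ptq.mem s.pt.ne s.ptq.ne s.qp.symm
        (conj_eq_iff.1 e) gq) gc
    · exact e
  have hβ : g⁻¹ * c * k ∈ β := by
    refine (vα.mem_of_fix s.e.syl (mul_mem (mul_mem (inv_mem gα) s.cα) s.kα)
      fun L₂ y l₂ py => ?_).2
    by_cases e : L₂ = W
    · subst e
      rw [vα.pt_eq s.e.syl l₂ py s.pt]
      calc g⁻¹ * c * k * p = g⁻¹ * (c * (k * p * k⁻¹) * c⁻¹) * c * k := by group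
        _ = g⁻¹ * (g * p * g⁻¹) * c * k := by rw [s.cq, gp, s.pq]
        _ = _ := by group
    · have a1 := mem_cent_iff.1 (Cp_le_cent l₂ e s.hk) y py.mem
      have a2 := mem_cent_iff.1 (s.co L₂ l₂ e) y py.mem
      have a3 := (turn_oth s.hk l₂ e py).bm (inv_mem hg)
      rw [mul_assoc, a1, ← mul_assoc, mul_assoc g⁻¹, a2, ← mul_assoc, a3]
      group
  have eβ : cj c (cj k β) = cj g β := by
    rw [cj_cj]
    exact cj_eq_cj (by simpa only [mul_assoc] using le_normalizer hβ)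
  have l1 : Ln (cj g β) (cj g L') := l'.cj g
  have l2 : Ln (cj g β) (cj c L) := eβ ▸ l.cj c
  have x1 : x ∈ cj g L' := by
    have := conj_mem_map_conj (g := g) xl'
    rwa [conj_eq_iff.2 gx] at this
  have x2 : x ∈ cj c L := by
    have := conj_mem_map_conj (g := c) px.mem
    rwa [conj_eq_iff.2 cx] at this
  have eL := (vβ.cj g).ln_eq l1 l2 x1 x2 px.ne
  have xc : x ∈ centralizer (L' : Set G) := ea_le_c (vβ.ea_ln l') xl'
  have gn := vγ.norm_of_fix l gγ px.mem px.ne gx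
  have v0 : g⁻¹ * v * g ∈ L := conj_mem_of_mem_normalizer' gn hv
  have vx : ∀ u ∈ L, u * x = x * u := fun u hu =>
    mem_cent_iff.1 (ea_le_c (vγ.ea_ln l) hu) x px.mem
  have vc' : v ∉ centralizer (cj g L' : Set G) := by
    rw [← cj_centralizer, mem_cj]
    intro hc
    rcases four_move l.2.1 (vγ.ea_ln l) gn px.mem px.ne gx v0 with e | e
    · exact vc (by
        have : v = g * (g⁻¹ * v * g) * g⁻¹ := by group
        rw [this, e]; exact hc)
    · exact vc (by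
        have : v = g * (g⁻¹ * v * g) * g⁻¹ := by group
        rw [this, e]; exact mul_mem hc xc)
  have vn : v ∈ normalizer (cj g L' : Set G) := by
    rw [← cj_normalizer, mem_cj]
    exact vβ.norm_of_fix l' (hL v0) xl' px.ne (vx _ v0)
  have v' : c * v * c⁻¹ ∈ cj g L' := eL ▸ conj_mem_map_conj hv
  rcases four_move l1.2.1 ((vβ.cj g).ea_ln l1) vn x1 px.ne (vx v hv) v' with e | e
  · refine absurd (four_fix_two l1.2.1 x1 v' px.ne (fun h => vc ?_) (fun h => vc ?_) (vx v hv)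
      (conj_eq_iff.1 e)) vc'
    · have : v = 1 := by simpa using h
      rw [this]; exact one_mem _
    · have : v = x := by
        rw [← conj_eq_iff.2 cx] at h
        simpa using h.symm
      rw [this]; exact xc
  · have := mem_cent_iff.1 (ea_le_c ((vβ.cj g).ea_ln l1) v') x x1
    rw [commutatorElement_def, e, this]
    group

theorem key {L : Subgroup G} {x v h : G} (l : Ln (cj k β) L) (hx : x ∈ L) (x1 : x ≠ 1)
    (hv : v ∈ L) (hα : h ∈ α) (hq : h * (k * p * k⁻¹) * h⁻¹ = k * p * k⁻¹)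
    (ho : ∀ L y, Ln α L → L ≠ W → Pt (α ⊓ β) L y → h * y = y * h) (hh : h * x = x * h) :
    h * v * h⁻¹ = v ∨ h * v * h⁻¹ = v * x :=
  four_move l.2.1 (s.e'.v'.ea_ln l) (s.e'.v'.norm_of_fix l (s.fix hα hq ho) hx x1 hh) hx x1 hh hv

theorem endA {L : Subgroup G} {x v g : G} (l : Ln (cj k β) L) (hx : x ∈ L) (x1 : x ≠ 1)
    (cx : c * x = x * c) (hv : v ∈ L) (vv : v * (c * v * c⁻¹) = c * v * c⁻¹ * v) (gα : g ∈ α)
    (gp : g * p = p * g) (go : ∀ L y, Ln α L → L ≠ W → Pt (α ⊓ β) L y → g * y = y * g)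
    (gx : g * x = x * g) : g * (v * (c * v * c⁻¹)) * g⁻¹ = v * (c * v * c⁻¹) ∨
      g * (v * (c * v * c⁻¹)) * g⁻¹ = v * (c * v * c⁻¹) * x := by
  have vα := s.e.v
  have Cvx : Commute v x := mem_cent_iff.1 (ea_le_c (s.e'.v'.ea_ln l) hv) x hx
  have Ccx : Commute c x := cx
  have Cgx : Commute g x := gx
  have Ccp : Commute c p := s.cp
  have Cgp : Commute g p := gp
  have xx : x * x = 1 := ea_sq (s.e'.v'.ea_ln l) hx
  have Cv'x : Commute (c * v * c⁻¹) x := (Ccx.mul_left Cvx).mul_left Ccx.inv_left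
  have co : ∀ L y, Ln α L → L ≠ W → Pt (α ⊓ β) L y → Commute c y := fun L y l e py =>
    mem_cent_iff.1 (s.co L l e) y py.mem
  have cq' : c⁻¹ * (k * p * k⁻¹ * p) * c = k * p * k⁻¹ := by rw [← s.cq]; group
  have fin : ∀ a b : G, (a = v ∨ a = v * x) → (b = c * v * c⁻¹ ∨ b = c * v * c⁻¹ * x) →
      (a * b = v * (c * v * c⁻¹) ∨ a * b = v * (c * v * c⁻¹) * x) ∧
      (b * a = v * (c * v * c⁻¹) ∨ b * a = v * (c * v * c⁻¹) * x) := by
    rintro a b (rfl | rfl) (rfl | rfl)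
    · exact ⟨Or.inl rfl, Or.inl vv.symm⟩
    · refine ⟨Or.inr (by group), Or.inr ?_⟩
      rw [vv, mul_assoc, ← Cvx.eq, mul_assoc]
      group
    · refine ⟨Or.inr ?_, Or.inr ?_⟩
      · rw [mul_assoc, ← Cv'x.eq]; group
      · rw [vv]; group
    · refine ⟨Or.inl ?_, Or.inl ?_⟩
      · rw [Cv'x.eq, mul_assoc, ← mul_assoc x, xx, one_mul]
      · rw [Cvx.eq, mul_assoc, ← mul_assoc x, xx, one_mul, vv]
  have cxx : ∀ a : G, (a = v ∨ a = v * x) →
      (c * a * c⁻¹ = c * v * c⁻¹ ∨ c * a * c⁻¹ = c * v * c⁻¹ * x) := by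
    rintro a (rfl | rfl)
    · exact Or.inl rfl
    · right
      rw [mul_assoc _ c⁻¹, Ccx.inv_left.eq]
      group
  rcases four_move s.l.2.1 (vα.ea_ln s.l) (vα.norm_of_fix s.l gα s.pt.mem s.pt.ne gp) s.pt.mem
    s.pt.ne gp s.ptq.mem with e | e
  · have k1 := s.key l hx x1 hv gα e go gx
    have k2 := s.key l hx x1 hv (h := c⁻¹ * g * c) (mul_mem (mul_mem (inv_mem s.cα) gα) s.cα)
      (by
        calc c⁻¹ * g * c * (k * p * k⁻¹) * (c⁻¹ * g * c)⁻¹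
            = c⁻¹ * g * (c * (k * p * k⁻¹) * c⁻¹) * g⁻¹ * c := by group
          _ = c⁻¹ * (g * (k * p * k⁻¹) * g⁻¹ * (g * p * g⁻¹)) * c := by rw [s.cq]; group
          _ = _ := by rw [e, conj_eq_iff.2 gp, cq'])
      (fun L y l e py => (((co L y l e py).inv_left.mul_left (go L y l e py)).mul_left
        (co L y l e py)).eq) ((Ccx.inv_left.mul_left Cgx).mul_left Ccx).eq
    have : g * (v * (c * v * c⁻¹)) * g⁻¹ =
        (g * v * g⁻¹) * (c * (c⁻¹ * g * c * v * (c⁻¹ * g * c)⁻¹) * c⁻¹) := by group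
    rw [this]
    exact (fin _ _ k1 (cxx _ k2)).1
  · have k1 := s.key l hx x1 hv (h := c⁻¹ * g) (mul_mem (inv_mem s.cα) gα)
      (by
        calc c⁻¹ * g * (k * p * k⁻¹) * (c⁻¹ * g)⁻¹
            = c⁻¹ * (g * (k * p * k⁻¹) * g⁻¹) * c := by group
          _ = _ := by rw [e, cq'])
      (fun L y l e py => ((co L y l e py).inv_left.mul_left (go L y l e py)).eq)
      (Ccx.inv_left.mul_left Cgx).eq
    have k2 := s.key l hx x1 hv (h := g * c) (mul_mem gα s.cα)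
      (by
        calc g * c * (k * p * k⁻¹) * (g * c)⁻¹
            = g * (c * (k * p * k⁻¹) * c⁻¹) * g⁻¹ := by group
          _ = g * (k * p * k⁻¹) * g⁻¹ * (g * p * g⁻¹) := by rw [s.cq]; group
          _ = _ := by rw [e, conj_eq_iff.2 gp, mul_assoc, s.pp, mul_one])
      (fun L y l e py => (Commute.mul_left (go L y l e py) (co L y l e py)).eq)
      (Cgx.mul_left Ccx).eq
    have : g * (v * (c * v * c⁻¹)) * g⁻¹ =
        (c * (c⁻¹ * g * v * (c⁻¹ * g)⁻¹) * c⁻¹) * (g * c * v * (g * c)⁻¹) := by group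
    rw [this]
    exact (fin _ _ k2 (cxx _ k1)).2

theorem endB {L : Subgroup G} {x v : G} (k3 : k ^ 3 = 1) (l : Ln (cj k β) L) (hx : x ∈ L)
    (x1 : x ≠ 1) (cx : c * x = x * c) (kx : Cp α W ≤ centralizer {x}) (hv : v ∈ L) (v1 : v ≠ 1)
    (vx : v ≠ x) (h : ∀ r ∈ pCoreOf 2 (Cp α W), r * (v * (c * v * c⁻¹)) = v * (c * v * c⁻¹) * r) :
    pCoreOf 2 (Cp α W) ≤ centralizer (L : Set G) ∧
      pCoreOf 2 (Cp α W) ≤ centralizer (cj k⁻¹ L : Set G) := by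
  have vα := s.e.v
  have vγ := s.e'.v'
  have c3 := vα.c3 W s.l
  have Ckx : Commute k x := mem_c1.1 (kx s.hk)
  have Ccx : Commute c x := cx
  have rx : ∀ r ∈ pCoreOf 2 (Cp α W), r * x = x * r := fun r hr => mem_c1.1 (kx (O_le _ hr))
  have rn : pCoreOf 2 (Cp α W) ≤ normalizer (L : Set G) := fun r hr =>
    vγ.norm_of_fix l (s.e'.O_le (Vx.OCp_le s.l hr)) hx x1 (rx r hr)
  have kO : k ∈ normalizer (pCoreOf 2 (Cp α W) : Set G) := le_normalizer_pCoreOf 2 _ s.hk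
  have eL : cj c L = cj k L := by
    have : k⁻¹ * c ∈ normalizer (L : Set G) := by
      refine vγ.norm_of_fix l (s.fix (mul_mem (inv_mem s.kα) s.cα) ?_ fun L₂ y l₂ e py => ?_) hx x1
        (Ckx.inv_left.mul_left Ccx).eq
      · calc k⁻¹ * c * (k * p * k⁻¹) * (k⁻¹ * c)⁻¹
            = k⁻¹ * (c * (k * p * k⁻¹) * c⁻¹) * k := by group
          _ = _ := by rw [s.cq, ← s.kq]; group
      · exact (Commute.mul_left (Commute.inv_left
          (mem_cent_iff.1 (Cp_le_cent l₂ e s.hk) y py.mem))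
          (mem_cent_iff.1 (s.co L₂ l₂ e) y py.mem)).eq
    exact cj_eq_cj this
  obtain ⟨R₁, hR⟩ : ∃ R₁, R₁ = pCoreOf 2 (Cp α W) ⊓ centralizer (L : Set G) := ⟨_, rfl⟩
  have kR : k ∈ normalizer (R₁ : Set G) := by
    rw [← inv_mem_iff]
    refine mem_norm_of_cj_le fun r hr => ?_
    rw [mem_cj, inv_inv, hR] at hr
    obtain ⟨h1, h2⟩ := hr
    have h3 : r ∈ pCoreOf 2 (Cp α W) := by
      have := conj_mem_of_mem_normalizer' kO h1
      simpa [mul_assoc] using this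
    have h4 := mem_cent_iff.1 h2 v hv
    have h5 : k * r * k⁻¹ * (c * v * c⁻¹) = c * v * c⁻¹ * (k * r * k⁻¹) := by
      have := h _ h1
      rw [← mul_assoc, h4, mul_assoc, mul_assoc v] at this
      exact mul_left_cancel this
    have x2 : x ∈ cj c L := by
      have := conj_mem_map_conj (g := c) hx
      rwa [conj_eq_iff.2 cx] at this
    have h6 : k * r * k⁻¹ ∈ centralizer (cj c L : Set G) :=
      four_fix_two (l.cj c).2.1 x2 (conj_mem_map_conj hv) x1 (fun e => v1 (by simpa using e))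
        (fun e => vx (by
          rw [← conj_eq_iff.2 cx] at e
          simpa using e.symm)) (rx _ h1) h5
    rw [eL, ← cj_centralizer, mem_cj] at h6
    exact hR ▸ ⟨h3, by simpa [mul_assoc] using h6⟩
  have RR : R₁ ≤ pCoreOf 2 (Cp α W) := hR ▸ inf_le_left
  have nR : pCoreOf 2 (Cp α W) ≤ normalizer (R₁ : Set G) :=
    hR ▸ inf_le_normalizer_inf le_normalizer (le_normalizer_centralizer rn)
  have hN : pCoreOf 2 (Cp α W) ≤ normalizer ((R₁ ⊔ zpowers k : Subgroup G) : Set G) := by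
    intro r hr
    refine mem_norm_of_cj_le ?_
    rw [cj_sup, cj_eq_of_mem_normalizer (nR hr)]
    refine sup_le le_sup_left ?_
    rw [cj, MonoidHom.map_zpowers, zpowers_le]
    have a1 : k * r⁻¹ * k⁻¹ ∈ pCoreOf 2 (Cp α W) := conj_mem_of_mem_normalizer kO (inv_mem hr)
    have a2 : r * (k * r⁻¹ * k⁻¹) ∈ R₁ := by
      rcases (four_fix l.2.1 (rn hr) (rn a1) hx x1 (rx _ hr) (rx _ a1)).2.2 with e | e | e
      · have : r ∈ R₁ := hR ▸ ⟨hr, e⟩
        exact mul_mem this (conj_mem_of_mem_normalizer kR (inv_mem this))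
      · have b1 : k * r⁻¹ * k⁻¹ ∈ R₁ := hR ▸ ⟨a1, e⟩
        have b2 := inv_mem (conj_mem_of_mem_normalizer' kR b1)
        exact mul_mem (by simpa [mul_assoc] using b2) b1
      · exact hR ▸ ⟨mul_mem hr a1, e⟩
    have : (MulAut.conj r).toMonoidHom k = r * (k * r⁻¹ * k⁻¹) * k := by simp [mul_assoc]
    rw [this]
    exact mul_mem (mem_sup_left a2) (mem_sup_right (mem_zpowers k))
  have hle := c3.le_of_normal hN s.hk s.hk' (mem_sup_right (mem_zpowers k))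
  have main : pCoreOf 2 (Cp α W) ≤ centralizer (L : Set G) := by
    intro r hr
    have a1 := H53.pow_mem_of_mem_sup (zpowers_le.2 kR) (hle (O_le _ hr))
    obtain ⟨n, hn⟩ := exists_pow_eq_one (pg_O _) hr
    have a2 : Odd (Nat.card (zpowers k)) := by
      rw [Nat.card_zpowers]
      exact Odd.of_dvd_nat (by decide : Odd 3) (orderOf_dvd_of_pow_eq_one k3)
    have : r ∈ R₁ := mem_of_odd_pow a2 a1 (hn ▸ one_mem _)
    exact (hR ▸ this).2
  refine ⟨main, ?_⟩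
  have := cj_le_cent main k⁻¹
  rwa [cj_eq_of_mem_normalizer (inv_mem kO)] at this

end Tn

/-! ### `Ω₁ Z(J(T))` is generated by the points -/

theorem Vx.dec {P T W₁ W₂ : Subgroup G} (v : Vx P) (hT : SylIn 2 T P) (l₁ : Ln P W₁)
    (l₂ : Ln P W₂) (hne : W₂ ≠ W₁) {p₁ p₂ y : G} (a₁ : Pt T W₁ p₁) (a₂ : Pt T W₂ p₂)
    (hy : y ∈ om (JJ T)) : ∃ y' ∈ om (JJ T), resOf 2 P ≤ centralizer {y'} ∧
      ∀ H : Subgroup G, p₁ ∈ H → p₂ ∈ H → (y' ∈ H ↔ y ∈ H) := by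
  obtain ⟨x₁, b₁, -, c₁⟩ := v.exists_pt hT l₁
  obtain ⟨x₂, b₂, -, c₂⟩ := v.exists_pt hT l₂
  obtain rfl := v.pt_eq hT l₁ b₁ a₁
  obtain rfl := v.pt_eq hT l₂ b₂ a₂
  have fin : ∀ y', Cp P W₁ ≤ centralizer {y'} → Cp P W₂ ≤ centralizer {y'} →
      resOf 2 P ≤ centralizer {y'} := fun y' h1 h2 => v.res.trans (iSup₂_le fun W l => by
    rcases v.other l₁ l₂ hne l with rfl | rfl
    exacts [h1, h2])
  obtain ⟨y₁, m₁, d₁, e₁⟩ : ∃ y₁ ∈ om (JJ T), Cp P W₁ ≤ centralizer {y₁} ∧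
      ∀ H : Subgroup G, x₁ ∈ H → (y₁ ∈ H ↔ y ∈ H) := by
    rcases c₁ y hy with h | h
    · exact ⟨y, hy, h, fun _ _ => Iff.rfl⟩
    · exact ⟨_, mul_mem hy a₁.zb, h, fun H hH => H.mul_mem_cancel_right hH⟩
  rcases c₂ y₁ m₁ with h | h
  · exact ⟨y₁, m₁, fin _ d₁ h, fun H h1 _ => e₁ H h1⟩
  · refine ⟨_, mul_mem m₁ a₂.zb, fin _ (fun g hg => mem_c1.2 ?_) h,
      fun H h1 h2 => (H.mul_mem_cancel_right h2).trans (e₁ H h1)⟩
    exact (Commute.mul_right (mem_c1.1 (d₁ hg))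
      (mem_cent_iff.1 (Cp_le_cent l₂ hne hg) _ a₂.mem)).eq

theorem Ed.res_cent {X Y W₁ W₂ V₁ V₂ : Subgroup G} (e : Ed X Y) (l₁ : Ln X W₁) (l₂ : Ln X W₂)
    (hne : W₂ ≠ W₁) (m₁ : Ln Y V₁) (m₂ : Ln Y V₂) (hne' : V₂ ≠ V₁) {q₁ q₂ : G}
    (b₁ : Pt (X ⊓ Y) V₁ q₁) (b₂ : Pt (X ⊓ Y) V₂ q₂) (c₁ : Cp X W₁ ≤ centralizer {q₁})
    (c₂ : Cp X W₁ ≤ centralizer {q₂}) :
    resOf 2 X ≤ centralizer {q₁} ∧ resOf 2 X ≤ centralizer {q₂} := by
  obtain ⟨s, hs, es⟩ := e.v.trans _ _ _ e.syl l₁ l₂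
  have key : ∀ V q, Ln Y V → Pt (X ⊓ Y) V q → resOf 2 X ≤ centralizer {q} := by
    have k1 : ∀ V q, Ln Y V → Pt (X ⊓ Y) V q → Cp X W₁ ≤ centralizer {q} := by
      intro V q m b
      rcases e.v'.other m₁ m₂ hne' m with rfl | rfl
      · rwa [e.v'.pt_eq e.syl' m b b₁]
      · rwa [e.v'.pt_eq e.syl' m b b₂]
    intro V q m b
    refine e.v.res.trans (iSup₂_le fun W l => ?_)
    rcases e.v.other l₁ l₂ hne l with rfl | rfl
    · exact k1 V q m b
    · have b' := b.cj s⁻¹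
      rw [cj_eq_of_mem_normalizer (le_normalizer (inv_mem hs))] at b'
      have := cj_mono (g := s) (k1 _ _ (m.cj_mem (inv_mem hs.2)) b')
      rw [cj_Cp, es, cj_eq_of_mem_normalizer (le_normalizer hs.1), cj_centralizer_singleton]
        at this
      simpa [mul_assoc] using this
  exact ⟨key _ _ m₁ b₁, key _ _ m₂ b₂⟩

theorem Ed.zb_le {X Y W₁ W₂ V₁ V₂ : Subgroup G} (e : Ed X Y) (l₁ : Ln X W₁) (l₂ : Ln X W₂)
    (hne : W₂ ≠ W₁) (m₁ : Ln Y V₁) (m₂ : Ln Y V₂) (hne' : V₂ ≠ V₁) {p₁ p₂ q₁ q₂ : G}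
    (a₁ : Pt (X ⊓ Y) W₁ p₁) (a₂ : Pt (X ⊓ Y) W₂ p₂)
    (b₁ : Pt (X ⊓ Y) V₁ q₁) (b₂ : Pt (X ⊓ Y) V₂ q₂) (c₁ : Cp X W₁ ≤ centralizer {q₁})
    (c₂ : Cp X W₁ ≤ centralizer {q₂}) {H : Subgroup G} (h₁ : p₁ ∈ H) (h₂ : p₂ ∈ H)
    (h₃ : q₁ ∈ H) (h₄ : q₂ ∈ H) : om (JJ (X ⊓ Y)) ≤ H := by
  intro y hy
  obtain ⟨d₁, d₂⟩ := e.res_cent l₁ l₂ hne m₁ m₂ hne' b₁ b₂ c₁ c₂
  obtain ⟨y₁, n₁, r₁, f₁⟩ := e.v.dec e.syl l₁ l₂ hne a₁ a₂ hy
  obtain ⟨y₂, n₂, r₂, f₂⟩ := e.v'.dec e.syl' m₁ m₂ hne' b₁ b₂ n₁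
  have cc : ∀ {K : Subgroup G} {u : G}, K ≤ centralizer {u} → u ∈ centralizer (K : Set G) :=
    fun h g hg => mem_c1.1 (h hg)
  have r₃ : y₂ ∈ centralizer (resOf 2 X : Set G) := (f₂ _ (cc d₁) (cc d₂)).2 (cc r₁)
  have nT : ∀ {P : Subgroup G}, X ⊓ Y ≤ P → X ⊓ Y ≤ normalizer (resOf 2 P : Set G) :=
    fun h g hg => mem_normalizer_of_cj_eq (by
      rw [cj_resOf, cj_eq_of_mem_normalizer (le_normalizer (h hg))])
  have nN : X ⊓ Y ≤ normalizer ((om (JJ (X ⊓ Y)) ⊓ centralizer (resOf 2 X : Set G) ⊓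
      centralizer (resOf 2 Y : Set G) : Subgroup G) : Set G) :=
    inf_le_normalizer_inf (inf_le_normalizer_inf (norm_om (norm_JJ le_normalizer))
      (le_normalizer_centralizer (nT inf_le_left))) (le_normalizer_centralizer (nT inf_le_right))
  have := e.free (om (JJ (X ⊓ Y)) ⊓ centralizer (resOf 2 X : Set G) ⊓
      centralizer (resOf 2 Y : Set G)) ((ea_pg (ea_om _)).to_le (inf_le_left.trans inf_le_left))
    ((res_sup e.syl).ge.trans (sup_le ((le_centralizer_comm.1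
      (inf_le_left.trans inf_le_right)).trans (centralizer_le_normalizer' _)) nN))
    ((res_sup e.syl').ge.trans (sup_le ((le_centralizer_comm.1 inf_le_right).trans
      (centralizer_le_normalizer' _)) nN))
  have y1 : y₂ ∈ (⊥ : Subgroup G) := this ▸ ⟨⟨n₂, r₃⟩, cc r₂⟩
  rw [mem_bot] at y1
  exact (f₁ H h₁ h₂).1 ((f₂ H h₃ h₄).1 (y1 ▸ one_mem _))

end Cfsg.Agent.H71.QA
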