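import Cfsg.Agent.H71.QB3

/-!
QA block C, part 4: the critical distance is 1.
-/

set_option autoImplicit false
set_option linter.unusedSectionVars false

namespace Cfsg.Agent.H71.QA

open Cfsg Cfsg.Agent.H98 Cfsg.Agent.H84 Cfsg.Agent.H71.NG Cfsg.Agent.H72.NG Subgroup
open scoped commutatorElement

variable {G : Type*} [Group G] [Finite G]

omit [Finite G] in
theorem Pt.comm {X Y W : Subgroup G} {x : G} (h : Pt (X ⊓ Y) W x) : Pt (Y ⊓ X) W x :=
  inf_comm X Y ▸ h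

/-- All the data of a path. -/
structure PP (R : Subgroup G → Subgroup G → Prop) (b : ℕ) (δ ℓ m : ℤ → Subgroup G)
    (x k : ℤ → G) : Prop extends Pth R b δ ℓ m x k where
  gr : Gr R
  mn : Mn R b
  hb : 2 ≤ b

namespace PP

variable {R : Subgroup G → Subgroup G → Prop} {b : ℕ} {δ ℓ m : ℤ → Subgroup G} {x k : ℤ → G}
  (p : PP R b δ ℓ m x k)
include p

theorem adj (i j : ℤ) (h : j = i + 1 ∨ i = j + 1) : R (δ i) (δ j) := by
  rcases h with h | h
  · exact p.walk i j h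
  · exact p.gr.symm (p.walk j i h)

theorem ed (i j : ℤ) (h : j = i + 1 ∨ i = j + 1) : Ed (δ i) (δ j) := p.gr.ed (p.adj i j h)

theorem v (i : ℤ) : Vx (δ i) := (p.ed i (i + 1) (Or.inl rfl)).v

theorem wk (n : ℕ) (i j : ℤ) (h : j = i + n) : Wk R n (δ i) (δ j) := by
  induction n generalizing i with
  | zero =>
    rw [show j = i by omega]
    exact .nil (p.walk i _ rfl)
  | succ n ih => exact .cons (p.walk i _ rfl) (ih (i + 1) (by omega))

theorem zle (i j : ℤ) (h1 : i < j + b) (h2 : j < i + b) : Zv (δ i) ≤ pCoreOf 2 (δ j) := by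
  rcases le_total i j with h | h
  · exact p.mn (j - i).toNat (by omega) _ _ (p.wk _ i j (by omega))
  · exact p.mn (i - j).toNat (by omega) _ _ ((p.wk _ j i (by omega)).symm p.gr)

theorem zle' (i j : ℤ) (h1 : i ≤ j + b) (h2 : j ≤ i + b) : Zv (δ i) ≤ δ j := by
  have := p.hb
  rcases le_total i j with h | h
  · exact (p.zle i (j - 1) (by omega) (by omega)).trans (p.ed _ _ (by omega)).O_le
  · exact (p.zle i (j + 1) (by omega) (by omega)).trans (p.ed _ _ (by omega)).O_le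

theorem zcomm (i j : ℤ) (h1 : i < j + b) (h2 : j < i + b) {u w : G} (hu : u ∈ Zv (δ i))
    (hw : w ∈ Zv (δ j)) : u * w = w * u :=
  mem_cent_iff.1 ((p.v j).cent (p.zle i j h1 h2 hu)) w hw

theorem mZ (i : ℤ) (hi : i ≤ 0) (j : ℤ) (h : j = i + b) : m i ≤ Zv (δ j) := (p.l' i hi j h).1

theorem xZ (i : ℤ) (hi : i ≤ 0) : x i ∈ Zv (δ i) := (p.l i hi).1 (p.xl i hi)

theorem m_oth (i : ℤ) (hi : i ≤ 0) {L : Subgroup G} (l : Ln (δ i) L) (hne : L ≠ ℓ i) :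
    m i ≤ centralizer (L : Set G) :=
  crit_other (p.v i) (p.v (i + b)) (p.zle' _ _ (by omega) (by omega))
    (p.zle' _ _ (by omega) (by omega)) (p.l i hi) (p.l' i hi _ rfl) (p.ne i hi) l hne

theorem l_oth (i : ℤ) (hi : i ≤ 0) (j : ℤ) (h : j = i + b) {L : Subgroup G} (l : Ln (δ j) L)
    (hne : L ≠ m i) : ℓ i ≤ centralizer (L : Set G) :=
  crit_other (p.v j) (p.v i) (p.zle' _ _ (by omega) (by omega))
    (p.zle' _ _ (by omega) (by omega)) (p.l' i hi _ h) (p.l i hi)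
    (fun hle => p.ne i hi (le_centralizer_comm.1 hle)) l hne

theorem mx (i : ℤ) (hi : i ≤ 0) {t : G} (ht : t ∈ m i) : t * x i = x i * t :=
  mem_cent_iff.1 (ea_le_c ((p.v _).ea_ln (p.l' i hi _ rfl)) ht) _ (p.xm i hi)

theorem lx (i : ℤ) (hi : i ≤ 0) {t : G} (ht : t ∈ ℓ i) : t * x i = x i * t :=
  mem_cent_iff.1 (ea_le_c ((p.v _).ea_ln (p.l i hi)) ht) _ (p.xl i hi)

theorem m_ne (i : ℤ) (hi : i ≤ 0) : ∃ t ∈ m i, t ∉ centralizer (ℓ i : Set G) :=
  not_le_cent fun hle => p.ne i hi (le_centralizer_comm.1 hle)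

theorem F1 (i : ℤ) (hi : i ≤ 0) (j : ℤ) (h : j = i + 1) : Pt (δ i ⊓ δ j) (ℓ i) (x i) := by
  have := p.hb
  obtain ⟨t, ht, tc⟩ := p.m_ne i hi
  have tZ := p.mZ i hi _ rfl ht
  exact (p.v i).pt_of_fix (p.ed i j (by omega)).syl (p.l i hi)
    ⟨p.zle' _ _ (by omega) (by omega) tZ, p.zle' _ _ (by omega) (by omega) tZ⟩ tc (p.xl i hi)
    (p.x1 i hi) (p.mx i hi ht)

theorem F1' (i : ℤ) (hi : i ≤ 0) (j h : ℤ) (hj : j = i + b) (hh : h = j - 1) :
    Pt (δ j ⊓ δ h) (m i) (x i) := by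
  have := p.hb
  obtain ⟨t, ht, tc⟩ := not_le_cent (p.ne i hi)
  have tZ := (p.l i hi).1 ht
  exact (p.v j).pt_of_fix (p.ed j h (by omega)).syl (p.l' i hi j hj)
    ⟨p.zle' _ _ (by omega) (by omega) tZ, p.zle' _ _ (by omega) (by omega) tZ⟩ tc (p.xm i hi)
    (p.x1 i hi) (p.lx i hi ht)

theorem tn (i : ℤ) (hi : i ≤ 0) (j : ℤ) (h : j = i + 1) {c : G} (hc : c ∈ m i)
    (cc : c ∉ centralizer (ℓ i : Set G)) : Tn (δ i) (δ j) (ℓ i) (k i) (x i) c :=
  ⟨p.ed i j (by omega), p.l i hi, p.kmem i hi, p.knot i hi, p.F1 i hi j h,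
    p.zle' _ _ (by omega) (by omega) (p.mZ i hi _ rfl hc), cc, p.mx i hi hc,
    fun _ l hne => p.m_oth i hi l hne hc⟩

theorem F2 (i : ℤ) (hi : i ≤ 0) (h : ℤ) (hh : h = i - 1) :
    Pt (δ i ⊓ δ h) (ℓ i) (k i * x i * (k i)⁻¹) ∧ k i * x i * (k i)⁻¹ ≠ x i := by
  obtain ⟨t, ht, tc⟩ := p.m_ne i hi
  have s := p.tn i hi _ rfl ht tc
  rw [p.turn i hi h _ hh rfl]
  exact ⟨s.ptq, s.qp⟩

theorem back (i : ℤ) (hi : i ≤ 0) (h j : ℤ) (hh : h = i - 1) (hj : j = i + 1) :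
    δ j = cj (k i)⁻¹ (δ h) := by
  rw [p.turn i hi h j hh hj, cj_inv_cj]

/-- The reversed turn. -/
theorem tn' (i : ℤ) (hi : i ≤ 0) (h : ℤ) (hh : h = i - 1) {y c : G}
    (py : Pt (δ i ⊓ δ h) (ℓ i) y) (cα : c ∈ δ i) (cc : c ∉ centralizer (ℓ i : Set G))
    (cy : c * y = y * c) (co : ∀ W', Ln (δ i) W' → W' ≠ ℓ i → c ∈ centralizer (W' : Set G)) :
    Tn (δ i) (δ h) (ℓ i) (k i)⁻¹ y c :=
  ⟨p.ed i h (by omega), p.l i hi, inv_mem (p.kmem i hi),
    fun e => p.knot i hi (inv_mem_iff.1 e), py, cα, cc, cy, co⟩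

theorem oth (i : ℤ) (hi : i ≤ 0) (h j : ℤ) (hh : h = i - 1) (hj : j = i + 1) {L : Subgroup G}
    (l : Ln (δ i) L) (hne : L ≠ ℓ i) {y : G} (py : Pt (δ i ⊓ δ h) L y) : Pt (δ i ⊓ δ j) L y := by
  rw [p.turn i hi h j hh hj] at py
  exact turn_oth' (p.kmem i hi) l hne py

/-- A point of `ℓ i` with respect to `δ (i - 1)` is not centralized by `m i`. -/
theorem ncent (i : ℤ) (hi : i ≤ 0) (h : ℤ) (hh : h = i - 1) {y : G}
    (py : Pt (δ i ⊓ δ h) (ℓ i) y) : ¬ m i ≤ centralizer {y} := by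
  obtain ⟨a, a'⟩ := p.F2 i hi h hh
  obtain rfl := (p.v i).pt_eq (p.ed i h (by omega)).syl (p.l i hi) py a
  obtain ⟨t, ht, tc⟩ := p.m_ne i hi
  exact fun hle => tc (four_fix_two (p.l i hi).2.1 (p.xl i hi) py.mem (p.x1 i hi) py.ne a'.symm
    (p.mx i hi ht) (mem_c1.1 (hle ht)))

theorem gen (i : ℤ) (hi : i ≤ 0) (h : ℤ) (hh : h = i - 1) {y : G}
    (hy : y ∈ om (JJ (δ i ⊓ δ h))) (hm : m i ≤ centralizer {y}) :
    Cp (δ i) (ℓ i) ≤ centralizer {y} := by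
  obtain ⟨a, -⟩ := p.F2 i hi h hh
  obtain ⟨t, ht, tc⟩ := SetLike.not_le_iff_exists.1 (p.ncent i hi h hh a)
  have tα := p.zle' (i + b) i (by omega) (by omega) (p.mZ i hi _ rfl ht)
  exact (p.v i).gen_le (p.ed i h (by omega)).syl (p.l i hi)
    (fun g hg => mem_c1.2 (hg.2 y hy).symm) (hm ht) tα
    (ea_sq (p.v _).ea (p.mZ i hi _ rfl ht))
    ((p.v i).norm_of_fix (p.l i hi) tα (p.xl i hi) (p.x1 i hi) (p.mx i hi ht))
    (fun _ l hne => p.m_oth i hi l hne ht) a (fun e => tc (mem_c1.2 e))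

theorem x_ne (i : ℤ) (hi : i ≤ 0) {y : G} (h : Cp (δ i) (ℓ i) ≤ centralizer {y}) : y ≠ x i :=
  fun e => (p.v i).not_cent (p.l i hi) (p.xl i hi) (p.x1 i hi) (e ▸ h)

/-- Transport of a line at `δ (i - 1)` to `δ (i + 1)`. -/
theorem move (i : ℤ) (hi : i ≤ 0) (h j : ℤ) (hh : h = i - 1) (hj : j = i + 1) {L : Subgroup G}
    (l : Ln (δ h) L) {y : G} (py : Pt (δ h ⊓ δ i) L y) (hc : Cp (δ i) (ℓ i) ≤ centralizer {y}) :
    Ln (δ j) (cj (k i)⁻¹ L) ∧ Pt (δ j ⊓ δ i) (cj (k i)⁻¹ L) y := by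
  rw [p.back i hi h j hh hj]
  refine ⟨l.cj _, ?_⟩
  have := turn_pt (inv_mem (p.kmem i hi)) py.comm
  rw [conj_eq_iff.2 (mem_c1.1 (hc (inv_mem (p.kmem i hi))))] at this
  exact this.comm

theorem two (hb : b = 2) : False := by
  subst hb
  obtain ⟨v, hv, vc⟩ := not_le_cent (p.ne (-2) (by omega))
  obtain ⟨c, hc, cc⟩ := p.m_ne (-1) (by omega)
  have vZ := (p.l (-2) (by omega)).1 hv
  have cZ := p.mZ (-1) (by omega) 1 (by omega) hc
  have vv : v * v = 1 := ea_sq (p.v _).ea vZ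
  have c2 : c * c = 1 := ea_sq (p.v _).ea cZ
  have lm := p.l' (-2) (by omega) 0 (by omega)
  have lm' := p.l' (-1) (by omega) 1 (by omega)
  have s := p.tn (-1) (by omega) 0 (by omega) hc cc
  have e1 : ⁅v, c * v * c⁻¹⁆ = x (-2) := by
    refine s.turn2 (L := ℓ (-2)) ?_ lm ?_ (p.xm _ (by omega)) ?_ ?_ hv vc
    · rw [← p.turn (-1) (by omega) (-2) 0 (by omega) (by omega)]
      exact p.l _ (by omega)
    · rw [← p.turn (-1) (by omega) (-2) 0 (by omega) (by omega)]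
      exact (p.F1 (-2) (by omega) (-1) (by omega)).comm
    · exact p.zcomm 1 0 (by omega) (by omega) cZ (lm.1 (p.xm _ (by omega)))
    · exact (p.l _ (by omega)).1.trans (p.zle' _ _ (by omega) (by omega))
  have vx : v * x (-1) = x (-1) * v :=
    p.zcomm (-2) (-1) (by omega) (by omega) vZ (p.xZ _ (by omega))
  have vα : v ∈ δ 0 := p.zle' _ _ (by omega) (by omega) vZ
  have vi : v⁻¹ = v := inv_eq_of_mul_eq_one_left vv
  have ci : c⁻¹ = c := inv_eq_of_mul_eq_one_left c2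
  have pm := p.F1' (-2) (by omega) 0 (-1) (by omega) (by omega)
  by_cases hm : m (-2) = ℓ 0
  · have s' := p.tn' 0 le_rfl (-1) (by omega) (hm ▸ pm) vα (hm ▸ vc) (p.lx _ (by omega) hv)
      (fun W' l hne => p.l_oth (-2) (by omega) 0 (by omega) l (hm ▸ hne) hv)
    have e2 : ⁅c, v * c * v⁻¹⁆ = x (-1) := by
      refine s'.turn2 (L := m (-1)) ?_ (p.l (-1) (by omega)) ?_ (p.xl _ (by omega)) vx ?_ hc cc
      · rw [← p.back 0 le_rfl (-1) 1 (by omega) (by omega)]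
        exact lm'
      · rw [← p.back 0 le_rfl (-1) 1 (by omega) (by omega)]
        exact (p.F1' (-1) (by omega) 1 0 (by omega) (by omega)).comm
      · exact lm'.1.trans (p.zle' _ _ (by omega) (by omega))
    refine p.x_ne (-1) (by omega) (p.cx (-1) (by omega) (-2) (by omega)) ?_
    have xx : x (-1) * x (-1) = 1 := ea_sq (p.v _).ea (p.xZ _ (by omega))
    rw [← inv_eq_of_mul_eq_one_left xx, ← e1, ← e2]
    simp only [commutatorElement_def, mul_inv_rev, vi, ci, mul_assoc]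
  · have v1 : v ∈ δ 1 := by
      refine ((p.v 0).mem_of_fix (p.ed 0 1 (by omega)).syl vα fun W y l py => ?_).2
      by_cases e : W = m (-2)
      · subst e
        rw [(p.v 0).pt_eq (p.ed 0 1 (by omega)).syl l py
          (p.oth 0 le_rfl (-1) 1 (by omega) (by omega) lm hm pm)]
        exact p.lx _ (by omega) hv
      · exact mem_cent_iff.1 (p.l_oth (-2) (by omega) 0 (by omega) l e hv) y py.mem
    have vn := (p.v 1).norm_of_fix lm' v1 (p.xm _ (by omega)) (p.x1 _ (by omega)) vx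
    have a1 := mem_cent_iff.1 (ea_le_c ((p.v 1).ea_ln lm') hc) _
      (conj_mem_of_mem_normalizer vn hc)
    have a2 := ea_sq ((p.v 1).ea_ln lm') (conj_mem_of_mem_normalizer vn hc)
    refine p.x1 (-2) (by omega) ?_
    rw [← e1]
    calc ⁅v, c * v * c⁻¹⁆ = (v * c * v⁻¹) * (c * (v * c * v⁻¹)) * c := by
          simp only [commutatorElement_def, mul_inv_rev, vi, ci, mul_assoc]
      _ = 1 := by rw [a1, ← mul_assoc, a2, one_mul, c2]

/-- For `b ≥ 3`, `x i` is the point of the second line at `δ (i + 2)`. -/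
theorem second (hb : 3 ≤ b) (i j l : ℤ) (hj : j = i + 1) (hl : l = i + 2) (hi : l ≤ 0) :
    Ln (δ l) (cj (k j)⁻¹ (ℓ i)) ∧ cj (k j)⁻¹ (ℓ i) ≠ ℓ l ∧
      Pt (δ l ⊓ δ j) (cj (k j)⁻¹ (ℓ i)) (x i) ∧
      ∀ n, n = i + 3 → Pt (δ l ⊓ δ n) (cj (k j)⁻¹ (ℓ i)) (x i) := by
  obtain ⟨a1, a2⟩ := p.move j (by omega) i l (by omega) (by omega) (p.l i (by omega))
    (p.F1 i (by omega) j hj) (p.cx j (by omega) i (by omega))
  have a3 : cj (k j)⁻¹ (ℓ i) ≠ ℓ l := by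
    intro e
    refine p.ncent l hi j (by omega) (e ▸ a2) fun t ht => mem_c1.2 ?_
    exact p.zcomm (l + b) (i + b) (by omega) (by omega) (p.mZ l hi _ rfl ht)
      (p.mZ i (by omega) _ rfl (p.xm i (by omega)))
  exact ⟨a1, a3, a2, fun n hn => p.oth l hi j n (by omega) (by omega) a1 a3 a2⟩

theorem cx2 (hb : 3 ≤ b) (i l : ℤ) (hl : l = i + 2) (hi : l ≤ 0) :
    Cp (δ l) (ℓ l) ≤ centralizer {x i} := by
  obtain ⟨a1, a2, a3, -⟩ := p.second hb i _ l rfl hl hi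
  exact (Cp_le_cent a1 a2).trans (c_le_c1 a3.mem)

theorem three (hb : b = 3) : False := by
  subst hb
  obtain ⟨a1, a2, -, a4⟩ := p.second le_rfl (-3) (-2) (-1) (by omega) (by omega) (by omega)
  obtain ⟨b1, b2, b3, -⟩ := p.second le_rfl (-2) (-1) 0 (by omega) (by omega) (by omega)
  have e := p.ed (-1) 0 (by omega)
  have lm := p.l' (-3) (by omega) 0 (by omega)
  have pm := (p.F1' (-3) (by omega) 0 (-1) (by omega) (by omega)).comm
  obtain ⟨s, hs, es⟩ := e.v.trans _ _ _ e.syl a1 (p.l (-1) (by omega))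
  have c1 := (a4 0 (by omega)).cj s
  have c2 := pm.cj s
  rw [cj_eq_of_mem_normalizer (le_normalizer hs)] at c1 c2
  rw [es] at c1
  rw [e.v.pt_eq e.syl (p.l (-1) (by omega)) c1 (p.F1 (-1) (by omega) 0 (by omega))] at c2
  have n1 := p.x_ne (-1) (by omega) (p.cx2 le_rfl (-3) (-1) (by omega) (by omega))
  have n2 := p.x_ne (-1) (by omega) (p.cx (-1) (by omega) (-2) (by omega))
  have n3 := p.x_ne (-2) (by omega) (p.cx (-2) (by omega) (-3) (by omega))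
  have hm : cj (k (-1))⁻¹ (ℓ (-2)) ≠ m (-3) := fun h =>
    n3 (e.v'.pt_eq e.syl' lm pm (h ▸ b3.comm))
  rcases e.v'.other lm b1 hm (lm.cj_mem hs.2) with h | h
  · exact n1 (e.v'.pt_eq e.syl' lm pm (h ▸ c2))
  · exact n2 (e.v'.pt_eq e.syl' b1 b3.comm (h ▸ c2))

theorem cx3 (hb : 4 ≤ b) (i n : ℤ) (hn : n = i + 3) (hi : n ≤ 0) :
    Cp (δ n) (ℓ n) ≤ centralizer {x i} := by
  obtain ⟨-, -, -, a4⟩ := p.second (by omega) i _ (i + 2) rfl rfl (by omega)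
  refine p.gen n hi (i + 2) (by omega) (a4 n hn).comm.zb fun t ht => mem_c1.2 ?_
  exact p.zcomm (n + b) (i + b) (by omega) (by omega) (p.mZ n hi _ rfl ht)
    (p.mZ i (by omega) _ rfl (p.xm i (by omega)))

/-- For `b ≥ 4`, `x i` is the point of `ℓ (i + 4)` with respect to `δ (i + 3)`. -/
theorem fourth (hb : 4 ≤ b) (i n o : ℤ) (hn : n = i + 3) (ho : o = i + 4) (hi : o ≤ 0) :
    Pt (δ o ⊓ δ n) (ℓ o) (x i) := by
  obtain ⟨a1, -, -, a4⟩ := p.second (by omega) i _ (i + 2) rfl rfl (by omega)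
  obtain ⟨b1, b2, b3, -⟩ := p.second (by omega) (i + 2) n o (by omega) (by omega) hi
  obtain ⟨c1, c2⟩ := p.move n (by omega) (i + 2) o (by omega) (by omega) a1 (a4 n hn)
    (p.cx3 hb i n hn (by omega))
  rcases (p.v o).other (p.l o hi) b1 b2 c1 with h | h
  · exact h ▸ c2
  · exact absurd ((p.v o).pt_eq (p.ed o n (by omega)).syl b1 (h ▸ c2) b3)
      (p.x_ne (i + 2) (by omega) (p.cx2 (by omega) i _ rfl (by omega)))

theorem five (hb : 5 ≤ b) : False := by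
  refine p.ncent 0 le_rfl (-1) (by omega)
    (p.fourth (by omega) (-4) (-1) 0 (by omega) (by omega) le_rfl) fun t ht => mem_c1.2 ?_
  exact p.zcomm (0 + b) (-4 + b) (by omega) (by omega) (p.mZ 0 le_rfl _ rfl ht)
    (p.mZ (-4) (by omega) _ rfl (p.xm _ (by omega)))

end PP

end Cfsg.Agent.H71.QA
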