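import Cfsg.Agent.H71.QB4

/-!
QA block C, part 5: the case `b = 4` and the theorem `b_one`.
-/

set_option autoImplicit false
set_option linter.unusedSectionVars false

namespace Cfsg.Agent.H71.QA

open Cfsg Cfsg.Agent.H98 Cfsg.Agent.H84 Cfsg.Agent.H71.NG Cfsg.Agent.H72.NG Subgroup
open scoped commutatorElement

variable {G : Type*} [Group G] [Finite G]

/-- The elements `u` normalizing `N` with `[u, t] ∈ N`. -/
def cst (N : Subgroup G) (t : G) : Subgroup G where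
  carrier := {u | u ∈ normalizer (N : Set G) ∧ ⁅u, t⁆ ∈ N}
  one_mem' := ⟨one_mem _, by simp⟩
  mul_mem' := by
    rintro a b ⟨ha, ha'⟩ ⟨hb, hb'⟩
    refine ⟨mul_mem ha hb, ?_⟩
    have : ⁅a * b, t⁆ = a * ⁅b, t⁆ * a⁻¹ * ⁅a, t⁆ := by
      simp only [commutatorElement_def]; group
    rw [this]
    exact mul_mem (conj_mem_of_mem_normalizer ha hb') ha'
  inv_mem' := by
    rintro a ⟨ha, ha'⟩
    refine ⟨inv_mem ha, ?_⟩
    have : ⁅a⁻¹, t⁆ = a⁻¹ * ⁅a, t⁆⁻¹ * a := by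
      simp only [commutatorElement_def]; group
    rw [this]
    exact conj_mem_of_mem_normalizer' ha (inv_mem ha')

theorem mem_cst {y u r : G} (h : u * y = y * u) (h' : r * u * r⁻¹ = u ∨ r * u * r⁻¹ = u * y) :
    u ∈ cst (zpowers y) r := by
  refine ⟨centralizer_le_normalizer' _ (mem_cent_iff.2 ?_), ?_⟩
  · rintro _ ⟨n, rfl⟩
    exact (Commute.zpow_right h n).eq
  · have : ⁅u, r⁆ = u * (r * u * r⁻¹)⁻¹ := by rw [commutatorElement_def]; group
    rw [this]
    rcases h' with e | e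
    · rw [e]; simp
    · rw [e, h]; simp

theorem comm_of_cst {y y' u r : G} (yy : y * y = 1) (y1 : y' ≠ 1) (hne : y' ≠ y)
    (hu : u ∈ cst (zpowers y) r) (uy : u * y' = y' * u)
    (h' : r * u * r⁻¹ = u ∨ r * u * r⁻¹ = u * y') : r * u = u * r := by
  rcases h' with e | e
  · exact conj_eq_iff.1 e
  · have h := hu.2
    have : ⁅u, r⁆ = u * (r * u * r⁻¹)⁻¹ := by rw [commutatorElement_def]; group
    rw [this, e, uy] at h
    have h2 : y' ∈ zpowers y := by simpa using h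
    rcases mem_zpowers_two yy h2 with e | e
    · exact absurd e y1
    · exact absurd e hne

theorem Vx.fix_oth {P T W₁ W₂ : Subgroup G} (v : Vx P) (hT : SylIn 2 T P) (l₁ : Ln P W₁)
    (l₂ : Ln P W₂) (hne : W₂ ≠ W₁) {p₂ g : G} (a₂ : Pt T W₂ p₂) (g₂ : g * p₂ = p₂ * g) :
    ∀ L y, Ln P L → L ≠ W₁ → Pt T L y → g * y = y * g := by
  intro L y l e py
  rcases v.other l₁ l₂ hne l with rfl | rfl
  · exact absurd rfl e
  · rwa [v.pt_eq hT l py a₂]

theorem Vx.fix_two {P T W₁ W₂ : Subgroup G} (v : Vx P) (hT : SylIn 2 T P) (l₁ : Ln P W₁)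
    (l₂ : Ln P W₂) (hne : W₂ ≠ W₁) {p₁ p₂ g : G} (a₁ : Pt T W₁ p₁) (a₂ : Pt T W₂ p₂) (hg : g ∈ P)
    (g₁ : g * p₁ = p₁ * g) (g₂ : g * p₂ = p₂ * g) : g ∈ T := by
  refine v.mem_of_fix hT hg fun L y l py => ?_
  by_cases e : L = W₁
  · subst e
    rwa [v.pt_eq hT l py a₁]
  · exact v.fix_oth hT l₁ l₂ hne a₂ g₂ L y l e py

namespace PP

variable {R : Subgroup G → Subgroup G → Prop} {δ ℓ m : ℤ → Subgroup G} {x k : ℤ → G}
  (p : PP R 4 δ ℓ m x k)
include p

theorem x4 (i o : ℤ) (ho : o = i + 4) (hi : o ≤ 0) : x i ∈ ℓ o :=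
  (p.fourth le_rfl i _ o rfl ho hi).mem

theorem ml (i o : ℤ) (ho : o = i + 4) (hi : o ≤ 0) : m i = ℓ o :=
  (p.v o).ln_eq (p.l' i (by omega) o (by omega)) (p.l o hi) (p.xm i (by omega)) (p.x4 i o ho hi)
    (p.x1 i (by omega))

theorem xne4 (i o : ℤ) (ho : o = i + 4) (hi : o ≤ 0) : x i ≠ x o := by
  obtain ⟨a, a'⟩ := p.F2 o hi (i + 3) (by omega)
  rwa [(p.v o).pt_eq (p.ed o (i + 3) (by omega)).syl (p.l o hi)
    (p.fourth le_rfl i _ o rfl ho hi) a]

theorem xc (i j : ℤ) (hi : i ≤ 0) (hj : j ≤ 0) (h1 : i ≤ j + 7) (h2 : j ≤ i + 7) :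
    Commute (x i) (x j) := by
  rcases lt_trichotomy i j with h | h | h
  · exact p.zcomm (i + 4) j (by omega) (by omega) (p.mZ i hi _ (by omega) (p.xm i hi)) (p.xZ j hj)
  · rw [h]
  · exact p.zcomm i (j + 4) (by omega) (by omega) (p.xZ i hi) (p.mZ j hj _ (by omega) (p.xm j hj))

theorem xx (i : ℤ) (hi : i ≤ 0) : x i * x i = 1 := ea_sq (p.v _).ea (p.xZ i hi)

theorem nc (i o : ℤ) (ho : o = i + 4) (hi : o ≤ 0) : x o ∉ centralizer (ℓ i : Set G) := by
  intro h
  have := eq_of_card_four (p.l o hi).2.1 (inf_le_left : ℓ o ⊓ centralizer (ℓ i : Set G) ≤ ℓ o)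
    ⟨p.x4 i o ho hi, ea_le_c ((p.v i).ea_ln (p.l i (by omega))) (p.xl i (by omega))⟩
    ⟨p.xl o hi, h⟩ (p.x1 _ (by omega)) (p.x1 _ hi) (p.xne4 i o ho hi)
  refine p.ne i (by omega) (le_centralizer_comm.1 ?_)
  rw [p.ml i o ho hi, ← this]
  exact inf_le_right

theorem nc' (h i o : ℤ) (hh : i = h + 4) (ho : o = i + 4) (hi : o ≤ 0) :
    x h ∉ centralizer (ℓ o : Set G) := by
  intro hc
  have := eq_of_card_four (p.l i (by omega)).2.1
    (inf_le_left : ℓ i ⊓ centralizer (ℓ o : Set G) ≤ ℓ i) ⟨p.x4 h i hh (by omega), hc⟩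
    ⟨p.xl i (by omega), ea_le_c ((p.v o).ea_ln (p.l o hi)) (p.x4 i o ho hi)⟩
    (p.x1 _ (by omega)) (p.x1 _ (by omega)) (p.xne4 h i hh (by omega))
  refine p.ne i (by omega) ?_
  rw [p.ml i o ho hi, ← this]
  exact inf_le_right

theorem far (a i j : ℤ) (h : j = i + 1 ∨ i = j + 1) (h1 : a ≤ i + 2) (h2 : i ≤ a + 2) {u w c : G}
    (hu : u ∈ Zv (δ a)) (hw : w ∈ Zv (δ j)) (hc : c ∈ δ i) : Commute u (c * w * c⁻¹) := by
  have r : R (δ i) (cj c (δ j)) := by
    have := p.gr.cj c (p.adj i j h)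
    rwa [cj_eq_of_mem_normalizer (le_normalizer hc)] at this
  have : Zv (δ a) ≤ pCoreOf 2 (cj c (δ j)) := by
    rcases le_total a i with h | h
    · exact p.mn ((i - a).toNat + 1) (by omega) _ _ ((p.wk _ a i (by omega)).snoc p.gr r)
    · exact p.mn ((a - i).toNat + 1) (by omega) _ _
        (((p.wk _ i a (by omega)).symm p.gr).snoc p.gr r)
  exact mem_cent_iff.1 ((p.gr.ed r).v'.cent (this hu)) _ (cj_Zv c _ ▸ conj_mem_map_conj hw)

theorem main4 (i : ℤ) (hi : i + 5 ≤ 0) :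
    pCoreOf 2 (Cp (δ i) (ℓ i)) ≤ centralizer (cj (k i)⁻¹ (ℓ (i - 1)) : Set G) ∧
      pCoreOf 2 (Cp (δ (i + 3)) (ℓ (i + 3))) ≤ centralizer (ℓ (i + 4) : Set G) := by
  obtain ⟨v, hv⟩ : ∃ v, v = x (i - 5) := ⟨_, rfl⟩
  obtain ⟨c, hc⟩ : ∃ c, c = x (i + 4) := ⟨_, rfl⟩
  have vl : v ∈ ℓ (i - 1) := hv ▸ p.x4 _ _ (by omega) (by omega)
  have cl : c ∈ ℓ (i + 4) := hc ▸ p.xl _ (by omega)
  have vZ : v ∈ Zv (δ (i - 1)) := (p.l _ (by omega)).1 vl
  have cZ : c ∈ Zv (δ (i + 4)) := (p.l _ (by omega)).1 cl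
  have cα : c ∈ δ i := p.zle' _ _ (by omega) (by omega) cZ
  have vα : v ∈ δ (i + 3) := p.zle' _ _ (by omega) (by omega) vZ
  have vi : v⁻¹ = v := inv_eq_of_mul_eq_one_left (hv ▸ p.xx _ (by omega))
  have ci : c⁻¹ = c := inv_eq_of_mul_eq_one_left (hc ▸ p.xx _ (by omega))
  have s := p.tn i (by omega) (i + 1) rfl (p.ml i (i + 4) rfl (by omega) ▸ cl)
    (hc ▸ p.nc i _ rfl (by omega))
  have s' := p.tn' (i + 3) (by omega) (i + 2) (by omega)
    (p.fourth le_rfl (i - 1) (i + 2) (i + 3) (by omega) (by omega) (by omega)) vα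
    (hv ▸ p.nc' (i - 5) (i - 1) (i + 3) (by omega) (by omega) (by omega))
    (hv ▸ p.xc _ _ (by omega) (by omega) (by omega) (by omega))
    (fun W' l hne => p.l_oth (i - 1) (by omega) (i + 3) (by omega) l
      (p.ml (i - 1) (i + 3) (by omega) (by omega) ▸ hne) vl)
  have lL : Ln (cj (k i) (δ (i + 1))) (ℓ (i - 1)) :=
    p.turn i (by omega) (i - 1) (i + 1) rfl rfl ▸ p.l _ (by omega)
  have lR : Ln (cj (k (i + 3))⁻¹ (δ (i + 2))) (ℓ (i + 4)) :=
    p.back (i + 3) (by omega) (i + 2) (i + 4) (by omega) (by omega) ▸ p.l _ (by omega)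
  have vv : Commute v (c * v * c⁻¹) :=
    p.far (i - 1) i (i - 1) (by omega) (by omega) (by omega) vZ vZ cα
  have cc : Commute c (v * c * v⁻¹) :=
    p.far (i + 4) (i + 3) (i + 4) (by omega) (by omega) (by omega) cZ cZ vα
  obtain ⟨e, he⟩ : ∃ e, e = v * (c * v * c⁻¹) := ⟨_, rfl⟩
  have he' : e = c * (v * c * v⁻¹) := by
    rw [he, vv.eq, vi, ci]
    group
  have ee : e * e = 1 := by
    conv_lhs => arg 1; rw [he]
    rw [he', vi, ci]
    have h1 : c * c = 1 := by nth_rewrite 1 [← ci]; simp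
    have h2 : v * v = 1 := by nth_rewrite 1 [← vi]; simp
    calc v * (c * v * c) * (c * (v * c * v)) = v * (c * (v * (c * c) * v) * c) * v := by group
      _ = 1 := by rw [h1, mul_one, h2, mul_one, h1, mul_one, h2]
  -- second lines
  obtain ⟨a1, a2, -, a4⟩ := p.second (by omega) (i - 2) (i - 1) i (by omega) (by omega) (by omega)
  obtain ⟨b1, b2, b3, b4⟩ :=
    p.second (by omega) (i - 1) i (i + 1) (by omega) (by omega) (by omega)
  obtain ⟨c1, c2, c3, c4⟩ :=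
    p.second (by omega) i (i + 1) (i + 2) (by omega) (by omega) (by omega)
  obtain ⟨d1, d2, d3, -⟩ :=
    p.second (by omega) (i + 1) (i + 2) (i + 3) (by omega) (by omega) (by omega)
  have AL : ∀ g ∈ δ i, g * x i = x i * g → g * x (i - 2) = x (i - 2) * g →
      g * x (i - 1) = x (i - 1) * g → g * e * g⁻¹ = e ∨ g * e * g⁻¹ = e * x (i - 1) :=
    fun g h0 h1 h2 h3 => he ▸ s.endA lL (p.xl _ (by omega)) (p.x1 _ (by omega))
      (hc ▸ p.xc _ _ (by omega) (by omega) (by omega) (by omega)) vl vv h0 h1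
      ((p.v i).fix_oth s.e.syl s.l a1 a2 (a4 _ (by omega)) h2) h3
  have AR : ∀ g ∈ δ (i + 3), g * x (i - 1) = x (i - 1) * g → g * x (i + 1) = x (i + 1) * g →
      g * x i = x i * g → g * e * g⁻¹ = e ∨ g * e * g⁻¹ = e * x i :=
    fun g h0 h1 h2 h3 => he' ▸ s'.endA lR (p.x4 _ _ rfl (by omega)) (p.x1 _ (by omega))
      (hv ▸ p.xc _ _ (by omega) (by omega) (by omega) (by omega)) cl cc h0 h1
      ((p.v _).fix_oth s'.e.syl s'.l d1 d2 d3 h2) h3
  have E := p.ed (i + 1) (i + 2) (by omega)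
  have l1 := p.l (i + 1) (by omega)
  have l2 := p.l (i + 2) (by omega)
  have P1 := p.F1 (i + 1) (by omega) (i + 2) (by omega)
  have P2 := b4 (i + 2) (by omega)
  have P3 := (p.fourth le_rfl (i - 2) (i + 1) (i + 2) (by omega) (by omega) (by omega)).comm
  have P4 := c3.comm
  have n1 : x (i - 1) ≠ x i := p.x_ne i (by omega) (p.cx i (by omega) _ rfl)
  have eZ : e ∈ om (JJ (δ (i + 1) ⊓ δ (i + 2))) := by
    have vT : v ∈ δ (i + 1) ⊓ δ (i + 2) :=
      ⟨p.zle' _ _ (by omega) (by omega) vZ, p.zle' _ _ (by omega) (by omega) vZ⟩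
    have cT : c ∈ δ (i + 1) ⊓ δ (i + 2) :=
      ⟨p.zle' _ _ (by omega) (by omega) cZ, p.zle' _ _ (by omega) (by omega) cZ⟩
    refine le_om_JJ (H51.isEA_zpowers (by rw [sq, ee])) (zpowers_le.2
      (he ▸ mul_mem vT (mul_mem (mul_mem cT vT) (inv_mem cT)))) (zpowers_le.2 fun g hg => ?_)
      (mem_zpowers e)
    have hB := JJ_le_Bm _ hg
    -- the final step
    have last : ∀ g ∈ δ (i + 1) ⊓ δ (i + 2), Commute g (x (i + 1)) → Commute g (x (i - 1)) →
        Commute g (x (i - 2)) → Commute g (x i) → Commute g (x (i - 3)) →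
        Commute g (x (i + 2)) → Commute g e := by
      intro g gT h1 h2 h3 h4 h5 h6
      have g0 : g ∈ δ i := ((p.v (i + 1)).fix_two (p.ed _ i (by omega)).syl l1 b1 b2
        (p.fourth le_rfl (i - 3) i (i + 1) (by omega) (by omega) (by omega)) b3 gT.1 h5 h2).2
      have g3 : g ∈ δ (i + 3) := ((p.v (i + 2)).fix_two (p.ed _ (i + 3) (by omega)).syl l2 c1 c2
        (p.F1 _ (by omega) _ (by omega)) (c4 _ rfl) gT.2 h6 h4).2
      rcases AL g g0 h4 h3 h2 with e1 | e1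
      · exact conj_eq_iff.1 e1
      rcases AR g g3 h2 h1 h4 with e2 | e2
      · exact conj_eq_iff.1 e2
      exact absurd (mul_left_cancel (e1.symm.trans e2)) n1
    have dZ := p.xZ (i + 5) hi
    have dZ' : x (i - 6) ∈ Zv (δ (i - 2)) := (p.l _ (by omega)).1 (p.x4 _ _ (by omega) (by omega))
    have dT : x (i + 5) ∈ δ (i + 1) ⊓ δ (i + 2) :=
      ⟨p.zle' _ _ (by omega) (by omega) dZ, p.zle' _ _ (by omega) (by omega) dZ⟩
    have dT' : x (i - 6) ∈ δ (i + 1) ⊓ δ (i + 2) :=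
      ⟨p.zle' _ _ (by omega) (by omega) dZ', p.zle' _ _ (by omega) (by omega) dZ'⟩
    have de : Commute (x (i + 5)) e := he' ▸ Commute.mul_right
      (hc ▸ p.xc _ _ (by omega) (by omega) (by omega) (by omega))
      (p.far (i + 5) (i + 3) (i + 4) (by omega) (by omega) (by omega) dZ cZ vα)
    have de' : Commute (x (i - 6)) e := he ▸ Commute.mul_right
      (hv ▸ p.xc _ _ (by omega) (by omega) (by omega) (by omega))
      (p.far (i - 2) i (i - 1) (by omega) (by omega) (by omega) dZ' vZ cα)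
    have canc : ∀ {d g : G}, Commute d e → Commute (d * g) e → Commute g e := fun {d g} h1 h2 => by
      simpa using h1.inv_left.mul_left h2
    have mid : ∀ g ∈ δ (i + 1) ⊓ δ (i + 2), Commute g (x (i + 1)) → Commute g (x (i - 1)) →
        Commute g (x (i - 2)) → Commute g (x i) → Commute g (x (i - 3)) → Commute g e := by
      intro g gT h1 h2 h3 h4 h5
      have q := p.xc (i - 6) (i - 2) (by omega) (by omega) (by omega) (by omega)
      rcases (four_fix l2.2.1 (E.v'.norm_of_fix l2 dT'.2 P3.mem P3.ne q)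
        (E.v'.norm_of_fix l2 gT.2 P3.mem P3.ne h3) P3.mem P3.ne q h3).2.2 with h | h | h
      · exact absurd h (p.nc' (i - 6) (i - 2) (i + 2) (by omega) (by omega) (by omega))
      · exact last g gT h1 h2 h3 h4 h5 (mem_cent_iff.1 h _ (p.xl _ (by omega)))
      · exact canc de' (last _ (mul_mem dT' gT)
          ((p.xc _ _ (by omega) (by omega) (by omega) (by omega)).mul_left h1)
          ((p.xc _ _ (by omega) (by omega) (by omega) (by omega)).mul_left h2) (q.mul_left h3)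
          ((p.xc _ _ (by omega) (by omega) (by omega) (by omega)).mul_left h4)
          ((p.xc _ _ (by omega) (by omega) (by omega) (by omega)).mul_left h5)
          (mem_cent_iff.1 h _ (p.xl _ (by omega))))
    have gT := Bm_le _ hB
    have h1 : Commute g (x (i + 1)) := P1.bm hB
    have h2 : Commute g (x (i - 1)) := P2.bm hB
    have h3 : Commute g (x (i - 2)) := P3.bm hB
    have h4 : Commute g (x i) := P4.bm hB
    have q := p.xc (i + 5) (i + 1) (by omega) (by omega) (by omega) (by omega)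
    have m3 : x (i - 3) ∈ ℓ (i + 1) := p.x4 _ _ (by omega) (by omega)
    rcases (four_fix l1.2.1 (E.v.norm_of_fix l1 dT.1 P1.mem P1.ne q)
      (E.v.norm_of_fix l1 gT.1 P1.mem P1.ne h1) P1.mem P1.ne q h1).2.2 with h | h | h
    · exact absurd h (p.nc (i + 1) (i + 5) (by omega) (by omega))
    · exact mid g gT h1 h2 h3 h4 (mem_cent_iff.1 h _ m3)
    · exact canc de (mid _ (mul_mem dT gT) (q.mul_left h1)
        ((p.xc _ _ (by omega) (by omega) (by omega) (by omega)).mul_left h2)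
        ((p.xc _ _ (by omega) (by omega) (by omega) (by omega)).mul_left h3)
        ((p.xc _ _ (by omega) (by omega) (by omega) (by omega)).mul_left h4)
        (mem_cent_iff.1 h _ m3))
  have ZB : ∀ H : Subgroup G, x (i + 1) ∈ H → x (i - 1) ∈ H → x (i - 2) ∈ H → x i ∈ H → e ∈ H :=
    fun H h1 h2 h3 h4 => E.zb_le l1 b1 b2 l2 c1 c2 P1 P2 P3 P4
      (p.cx3 le_rfl _ _ (by omega) (by omega)) (p.cx _ (by omega) _ (by omega)) h1 h2 h3 h4 eZ
  have eab : ∀ y ∈ om (JJ (δ (i + 1) ⊓ δ (i + 2))), e * y = y * e :=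
    mem_cent_iff.1 (ea_le_c (ea_om _) eZ)
  constructor
  · refine (s.endB (p.k3 i (by omega)) lL (p.xl _ (by omega)) (p.x1 _ (by omega))
      (hc ▸ p.xc _ _ (by omega) (by omega) (by omega) (by omega)) (p.cx i (by omega) _ rfl) vl
      (hv ▸ p.x1 _ (by omega)) (hv ▸ p.xne4 _ _ (by omega) (by omega)) fun r hr => ?_).2
    rw [← he]
    have rO := Vx.OCp_le s.l hr
    have r0 := mem_cent_iff.1 ((p.v i).O_cent s.l rO) _ (p.xl i (by omega))
    have r1 := mem_c1.1 (p.cx i (by omega) (i - 1) rfl (O_le _ hr))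
    have r2 := mem_c1.1 (p.cx2 (by omega) (i - 2) i (by omega) (by omega) (O_le _ hr))
    have r3 := mem_c1.1 (p.cx3 le_rfl (i - 3) i (by omega) (by omega) (O_le _ hr))
    have m3 : x (i - 3) ∈ ℓ (i + 1) := p.x4 _ _ (by omega) (by omega)
    refine comm_of_cst (p.xx (i - 3) (by omega)) (p.x1 (i - 1) (by omega))
      (p.x_ne _ (by omega) (p.cx2 (by omega) (i - 3) (i - 1) (by omega) (by omega))).symm
      (ZB _ (mem_cst (p.xc _ _ (by omega) (by omega) (by omega) (by omega)) ?_)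
        (mem_cst (p.xc _ _ (by omega) (by omega) (by omega) (by omega)) (Or.inl (conj_eq_iff.2 r1)))
        (mem_cst (p.xc _ _ (by omega) (by omega) (by omega) (by omega)) (Or.inl (conj_eq_iff.2 r2)))
        (mem_cst (p.xc _ _ (by omega) (by omega) (by omega) (by omega))
          (Or.inl (conj_eq_iff.2 r0)))) (eab _ P2.zb) (AL r (O_le _ rO) r0 r2 r1)
    exact four_move l1.2.1 (E.v.ea_ln l1)
      (E.v.norm_of_fix l1 (s.e.O_le rO) m3 (p.x1 _ (by omega)) r3) m3 (p.x1 _ (by omega)) r3 P1.mem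
  · refine (s'.endB (by rw [inv_pow, p.k3 _ (by omega), inv_one]) lR (p.x4 _ _ rfl (by omega))
      (p.x1 _ (by omega)) (hv ▸ p.xc _ _ (by omega) (by omega) (by omega) (by omega))
      (p.cx3 le_rfl i _ rfl (by omega)) cl (hc ▸ p.x1 _ (by omega))
      (hc ▸ (p.xne4 _ _ rfl (by omega)).symm) fun r hr => ?_).1
    rw [← he']
    have rO := Vx.OCp_le s'.l hr
    have r0 := mem_cent_iff.1 ((p.v _).O_cent s'.l rO) _ s'.pt.mem
    have r1 := mem_c1.1 (p.cx (i + 3) (by omega) (i + 2) (by omega) (O_le _ hr))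
    have r2 := mem_c1.1 (p.cx2 (by omega) (i + 1) (i + 3) (by omega) (by omega) (O_le _ hr))
    have r3 := mem_c1.1 (p.cx3 le_rfl i (i + 3) (by omega) (by omega) (O_le _ hr))
    have m3 : x (i + 2) ∈ ℓ (i + 2) := p.xl _ (by omega)
    refine comm_of_cst (p.xx (i + 2) (by omega)) (p.x1 i (by omega))
      (p.x_ne _ (by omega) (p.cx2 (by omega) i (i + 2) (by omega) (by omega)))
      (ZB _ (mem_cst (p.xc _ _ (by omega) (by omega) (by omega) (by omega))
          (Or.inl (conj_eq_iff.2 r2)))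
        (mem_cst (p.xc _ _ (by omega) (by omega) (by omega) (by omega)) (Or.inl (conj_eq_iff.2 r0)))
        (mem_cst (p.xc _ _ (by omega) (by omega) (by omega) (by omega)) ?_)
        (mem_cst (p.xc _ _ (by omega) (by omega) (by omega) (by omega))
          (Or.inl (conj_eq_iff.2 r3)))) (eab _ P4.zb) (AR r (O_le _ rO) r0 r2 r3)
    exact four_move l2.2.1 (E.v'.ea_ln l2)
      (E.v'.norm_of_fix l2 (s'.e.O_le rO) m3 (p.x1 _ (by omega)) r1) m3 (p.x1 _ (by omega)) r1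
      P3.mem

theorem four : False := by
  have h1 := (p.main4 (-5) (by omega)).1
  have h2 := (p.main4 (-8) (by omega)).2
  obtain ⟨b1, b2, -⟩ := p.second (by omega) (-6) (-5) (-4) (by omega) (by omega) (by omega)
  have E := p.ed (-5) (-4) (by omega)
  have l := p.l (-5) (by omega)
  refine E.R (E.v.O_res_le E.syl l (inf_le_right.trans (le_normalizer_pCoreOf 2 _)) fun r hr =>
    E.v'.faith r (E.O_le (Vx.OCp_le l hr)) fun W lW => ?_)
  rcases E.v'.other (p.l (-4) (by omega)) b1 b2 lW with rfl | rfl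
  · exact h2 hr
  · exact h1 hr

end PP

theorem no_pp {R : Subgroup G → Subgroup G → Prop} {b : ℕ} {δ ℓ m : ℤ → Subgroup G}
    {x k : ℤ → G} (p : PP R b δ ℓ m x k) : False := by
  have := p.hb
  rcases (by omega : b = 2 ∨ b = 3 ∨ b = 4 ∨ 5 ≤ b) with h | h | h | h
  · exact p.two h
  · exact p.three h
  · subst h
    exact p.four
  · exact p.five h

/-- The critical distance is 1. -/
theorem b_one {P P' : Subgroup G} (e : Ed P P') : ¬ Zv P ≤ pCoreOf 2 P' := by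
  classical
  let R : Subgroup G → Subgroup G → Prop := fun X Y =>
    ∃ g, (X = cj g P ∧ Y = cj g P') ∨ (X = cj g P' ∧ Y = cj g P)
  have gr : Gr R := by
    refine ⟨?_, ?_, ?_⟩
    · rintro _ _ ⟨g, ⟨rfl, rfl⟩ | ⟨rfl, rfl⟩⟩
      exacts [e.cj g, (e.cj g).symm]
    · rintro _ _ ⟨g, ⟨rfl, rfl⟩ | ⟨rfl, rfl⟩⟩
      exacts [⟨g, Or.inr ⟨rfl, rfl⟩⟩, ⟨g, Or.inl ⟨rfl, rfl⟩⟩]
    · rintro _ _ h ⟨g, ⟨rfl, rfl⟩ | ⟨rfl, rfl⟩⟩
      exacts [⟨h * g, Or.inl ⟨cj_cj _ _ _, cj_cj _ _ _⟩⟩, ⟨h * g, Or.inr ⟨cj_cj _ _ _, cj_cj _ _ _⟩⟩]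
  have r : R P P' := ⟨1, Or.inl ⟨(map_conj_one P).symm, (map_conj_one P').symm⟩⟩
  have hex : ∃ n, ∃ X Y : Subgroup G, Wk R n X Y ∧ ¬ Zv X ≤ pCoreOf 2 Y := by
    by_contra hn
    push Not at hn
    let S : Subgroup G :=
      { carrier := {g | ∃ n, Wk R n (cj g P) P}
        one_mem' := ⟨0, by rw [show cj 1 P = P from map_conj_one P]; exact .nil r⟩
        mul_mem' := by
          rintro a b ⟨n, ha⟩ ⟨m, hb⟩
          exact ⟨_, cj_cj a b P ▸ (hb.cj gr a).trans ha⟩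
        inv_mem' := by
          rintro a ⟨n, ha⟩
          have := (ha.cj gr a⁻¹).symm gr
          rw [cj_inv_cj] at this
          exact ⟨n, this⟩ }
    have hS : P ⊔ P' ≤ S := by
      refine sup_le (fun g hg => ⟨0, ?_⟩) (fun g hg => ⟨2, ?_⟩)
      · rw [cj_eq_of_mem_normalizer (le_normalizer hg)]
        exact .nil r
      · have := gr.cj g r
        rw [cj_eq_of_mem_normalizer (le_normalizer hg)] at this
        exact .cons this (.cons (gr.symm r) (.nil r))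
    have h1 : ncl (Zv P) (P ⊔ P') ≤ pCoreOf 2 P := ncl_le_iff.2 fun g hg => by
      obtain ⟨n, hw⟩ := hS hg
      rw [cj_Zv]
      exact hn n _ _ hw
    have h2 := e.free _ ((pg_O P).to_le h1) (le_sup_left.trans (norm_ncl _ _))
      (le_sup_right.trans (norm_ncl _ _))
    obtain ⟨W, l⟩ := e.v.ex
    exact four_ne_bot l.2.1 (eq_bot_iff.2 (h2 ▸ l.1.trans (le_ncl _ _)))
  obtain ⟨X, Y, hw, hc⟩ := Nat.find_spec hex
  have mn : Mn R (Nat.find hex) := fun n hn X Y hw => by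
    by_contra h
    exact Nat.find_min hex hn ⟨X, Y, hw, h⟩
  generalize Nat.find hex = b at hw mn
  rcases b with _ | _ | b
  · cases hw with
    | nil r => exact absurd (gr.ed r).v.le hc
  · cases hw with
    | cons r hw =>
      cases hw with
      | nil _ =>
        obtain ⟨g, ⟨rfl, rfl⟩ | ⟨rfl, rfl⟩⟩ := r
        · rwa [← cj_Zv, ← cj_pCoreOf, cj_le_cj_iff] at hc
        · rw [← cj_Zv, ← cj_pCoreOf, cj_le_cj_iff] at hc
          obtain ⟨W, W', l, l', hne⟩ := crit_lines e.v' e.v (e.v'.le.trans e.symm.O_le)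
            (e.v.le.trans e.O_le) hc
          exact fun hle => hne (le_centralizer_comm.1 ((l'.1.trans hle).trans (e.v'.O_cent l)))
  · obtain ⟨w, h, rfl, rfl⟩ := hw.exists_fun gr
    obtain ⟨W, W', x, c⟩ := exists_cp gr mn h hc
    obtain ⟨δ, ℓ, m, x, k, q⟩ := exists_pth gr mn c
    exact (no_pp ⟨q, gr, mn, by omega⟩).elim

end Cfsg.Agent.H71.QA
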