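import Cfsg.Agent.H18.RfSc

/-! Project RF, piece GW: two applications of Burnside's transfer theorem. -/

set_option autoImplicit false

namespace Cfsg.Agent.H71.RfGw

open Cfsg Subgroup Cfsg.Agent.H18.MaxOff Cfsg.Agent.H18.Rf
open Cfsg.Agent.H49 (XS LX)
open scoped Pointwise

universe u

variable {G : Type u} [Group G] [Finite G]

theorem core {C K A : Subgroup G} (hKC : K ≤ C) (hn : C ≤ NN K) (hO : pPrimeCore 2 C = ⊥)
    (hA : IsPGroup 2 A) (hAK : A ≤ K)
    (hs : ∀ R : Subgroup G, IsPGroup 2 R → A ≤ R → R ≤ K → R ≤ A) (hc : K ⊓ NN A ≤ CC A) :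
    K ≤ A := by
  haveI : Fact (Nat.Prime 2) := ⟨Nat.prime_two⟩
  let P : Sylow 2 K :=
    { A.subgroupOf K with
      isPGroup' := hA.comap_subtype
      is_maximal' := fun {R} hR hle => le_antisymm (fun x hx =>
        hs (R.map K.subtype) (hR.map _) (fun a ha => ⟨⟨a, hAK ha⟩, hle ha, rfl⟩)
          (map_subtype_le R) ⟨x, hx, rfl⟩) hle }
  have hP : normalizer (P : Set K) ≤ centralizer (P : Set K) := fun x hx y hy =>
    Subtype.ext (hc ⟨x.2, mem_norm_of_le fun a ha =>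
      (mem_normalizer_iff.1 hx ⟨a, hAK ha⟩).1 ha⟩ y hy)
  let N := (MonoidHom.transferSylow P hP).ker
  have h1 : ¬ 2 ∣ Nat.card N := MonoidHom.not_dvd_card_ker_transferSylow P hP
  have h2 : ∀ x : K, x ^ Nat.card N = 1 → x ∈ N := fun x hx => by
    obtain ⟨k, hk⟩ := P.isPGroup' (MonoidHom.transferSylow P hP x)
    refine orderOf_eq_one_iff.1 (Nat.eq_one_of_dvd_coprimes (Nat.Coprime.pow_left k
      ((Nat.Prime.coprime_iff_not_dvd Nat.prime_two).2 h1)) (orderOf_dvd_of_pow_eq_one hk)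
      (orderOf_dvd_of_pow_eq_one ?_))
    rw [← map_pow, hx, map_one]
  have h3 : ((N.map K.subtype).subgroupOf C).Normal := ⟨fun x ⟨y, hy, e⟩ c =>
    ⟨⟨c * y * (c : G)⁻¹, (mem_normalizer_iff.1 (hn c.2) _).1 y.2⟩, h2 _ (Subtype.ext (by
      have : y ^ Nat.card N = 1 := orderOf_dvd_iff_pow_eq_one.1 (orderOf_dvd_natCard N hy)
      rw [SubmonoidClass.coe_pow, conj_pow, ← SubmonoidClass.coe_pow, this]
      simp)), by
      change (c : G) * y * (c : G)⁻¹ = c * x * (c : G)⁻¹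
      rw [show (y : G) = x from e]⟩⟩
  have h4 : Nat.card ((N.map K.subtype).subgroupOf C) = Nat.card N := by
    rw [Nat.card_congr (subgroupOfEquivOfLe ((map_subtype_le N).trans hKC)).toEquiv,
      card_map_of_injective K.subtype_injective]
  have h5 : (N.map K.subtype).subgroupOf C ≤ pPrimeCore 2 C :=
    le_sSup ⟨h3, by rw [h4]; exact ((Nat.Prime.coprime_iff_not_dvd Nat.prime_two).2 h1).symm⟩
  rw [hO, le_bot_iff] at h5
  rw [h5, card_bot, eq_comm, card_eq_one] at h4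
  have h6 := (MonoidHom.ker_transferSylow_isComplement' P hP).sup_eq_top
  rw [show (MonoidHom.transferSylow P hP).ker = ⊥ from h4, bot_sup_eq] at h6
  exact subgroupOf_eq_top.1 h6

theorem nn_cc (A : Subgroup G) : NN A ≤ NN (CC A) := fun g hg =>
  mem_norm_of_le fun c hc a ha => by
    have := hc _ ((mem_normalizer_iff''.1 hg a).1 ha)
    calc a * (g * c * g⁻¹) = g * (g⁻¹ * a * g * c) * g⁻¹ := by group
      _ = g * c * g⁻¹ * a := by rw [this]; group

theorem gw : GwStmt.{u} := by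
  intro G _ _ V z Q W hV wc lc hO
  haveI : Fact (Nat.Prime 2) := ⟨Nat.prime_two⟩
  have hVV : V ≤ CC V := fun a ha b hb => comm_of_sq hV hb ha
  have hWV : W ≤ V := lc.qv ▸ inf_le_right
  have hz : ∀ A : Subgroup G, z ∈ A → CC A ≤ C1 z := fun A h =>
    centralizer_le (Set.singleton_subset_iff.2 h)
  refine ⟨fun h => ?_, fun h => ?_⟩
  · have h1 : V ≤ CC W := hVV.trans (centralizer_le hWV)
    have h2 : CC W ≤ V := core (hz W (lc.qv ▸ ⟨lc.xs.mem, lc.zV⟩)) (h.trans (nn_cc W)) hO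
      (pg_of_sq hV) h1 (fun R hR h1 h2 => (le_inf (wc.le_norm hR h1) h2).trans lc.nw)
      (((inf_comm _ _).le.trans lc.nw).trans hVV)
    rw [← le_antisymm h2 h1]
    exact h.trans (nn_cc W)
  · have hZ : ∀ x ∈ zpowers z, x * x = 1 := fun x hx => by
      rcases (H49.mem_zpowers_invol lc.xs.zz).1 hx with rfl | rfl
      exacts [mul_one _, lc.xs.zz]
    refine (core (A := zpowers z) (hz Q lc.xs.mem) (h.trans (nn_cc Q)) hO (pg_of_sq hZ)
      (zpowers_le.2 fun x hx => lc.xs.cen x hx) (fun R hR _ h2 r hr => ?_) fun x hx y hy => ?_).trans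
      (zpowers_le.2 lc.xs.mem)
    · have hVC : V ≤ C1 z := hVV.trans (hz V lc.zV)
      have hRC : R ≤ C1 z := h2.trans (hz Q lc.xs.mem)
      obtain ⟨S, hS⟩ := ((pg_of_sq hV).comap_subtype (K := C1 z)).exists_le_sylow
      obtain ⟨S', hS'⟩ := (hR.comap_subtype (K := C1 z)).exists_le_sylow
      obtain ⟨c, rfl⟩ := MulAction.exists_smul_eq (C1 z) S' S
      have h3 := wc.le_norm ((c • S').isPGroup'.map (C1 z).subtype)
        fun a ha => ⟨⟨a, hVC ha⟩, hS ha, rfl⟩
      have h4 : (c : G) * r * (c : G)⁻¹ ∈ NN V := h3 ⟨c * ⟨r, hRC hr⟩ * c⁻¹, by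
        rw [SetLike.mem_coe, Sylow.coe_subgroup_smul]
        exact smul_mem_pointwise_smul _ (MulAut.conj c) _ (hS' hr), rfl⟩
      have h5 : (c : G) * r * (c : G)⁻¹ ∈ CC Q :=
        (mem_normalizer_iff.1 (nn_cc Q (h c.2)) r).1 (h2 hr)
      have h6 : (c : G) * r * (c : G)⁻¹ ∈ C1 z := hz Q lc.xs.mem h5
      have h7 : (c : G) * r * (c : G)⁻¹ ∈ Q := lc.cq ⟨⟨h4, h6⟩,
        centralizer_le_normalizer _ (mem_centralizer_iff.2 (by
          rintro _ ⟨j, rfl⟩
          exact ((show Commute z _ from h6 z rfl).zpow_left j).eq)), fun x hx => by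
        rw [← h5 x hx, mul_inv_cancel_right, mul_inv_cancel]
        exact one_mem _⟩
      refine (H49.mem_zpowers_invol lc.xs.zz).2 ((lc.xs.cent _ h7 fun y hy => (h5 y hy).symm).imp
        (fun e => by simpa using e) fun e => ?_)
      have := c.2 z rfl
      calc r = (c : G)⁻¹ * (c * r * (c : G)⁻¹) * c := by group
        _ = z := by rw [e, mul_assoc, this, inv_mul_cancel_left]
    · obtain ⟨j, rfl⟩ := hy
      exact ((show Commute z x from hz Q lc.xs.mem hx.1 z rfl).zpow_left j).eq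

end Cfsg.Agent.H71.RfGw
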