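import Cfsg.Agent.H35.RfQ
import Cfsg.Agent.H42.Enum

/-! The kernel of the sextet group on the six tetrads. -/

set_option autoImplicit false
set_option linter.unusedVariables false

namespace Cfsg.Agent.H71.RfVbA

open Cfsg Subgroup Cfsg.Agent.H42 Cfsg.Agent.H35.RF MulAction
open scoped Pointwise

/-- colourings of the points -/
def Col : Type := GolayPt → ℕ

noncomputable instance colAct : MulAction M24 Col :=
  (arrowAction : MulAction M24 (GolayPt → ℕ))

theorem col_smul (g : M24) (F : Col) (p : GolayPt) : (g • F) p = F (g⁻¹ • p) := rfl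

/-- decoding -/
def decCol (c : ℕ) : Col := fun p => app c (idx p)

noncomputable def encCol : Enc M24 Col where
  ok g := inM g = true
  grp := toM
  valid c := c < 2 ^ 120
  dec := decCol
  act g c := pmul c (pinv g)
  act_valid _ _ _ _ := pack_lt _ 24 (fun _ _ => app_lt _ _)
  dec_act g c hg _ := by
    funext p
    rw [col_smul, ← toM_pinv hg]
    conv_rhs => rw [← pt_idx p, toM_smul_pt (inM_pinv hg) (idx_lt p)]
    show app _ (idx p) = app c (idx _)
    rw [app_pmul _ _ (idx_lt p),
      idx_pt (app_lt_of_isPerm (inM_isPerm (inM_pinv hg)) (idx_lt p))]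
  dec_inj x y hx hy h := by
    apply eq_of_app_eq hx hy
    intro i hi
    have := congrFun h (pt i)
    simpa only [decCol, idx_pt hi] using this

/-- the number of the tetrad -/
def col0 : ℕ := 213008521043845519840394388325799077

/-- generators of the kernel -/
def gK : List ℕ := rS :: gF

theorem inM_gK : ∀ g ∈ gK, inM g = true := allL_iff.mp (by decide +kernel)

theorem inM_gF : ∀ g ∈ gF, inM g = true := fun g hg => inM_gK g (List.mem_cons_of_mem _ hg)

theorem orb_col : orbSize (actsOf (fun g c => pmul c (pinv g)) gensS) col0 800 = 720 := by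
  decide +kernel

theorem card_gK : Nat.card (gen gK) = 192 :=
  card_gen_of_orbSize inM_gK (fuel := 250) (by norm_num) (by decide +kernel)

theorem mem_stab_col {y : ℕ} (hy : inM y = true) (h : ∀ a < 24, app col0 (app y a) = app col0 a) :
    toM y ∈ stabilizer M24 (decCol col0) := by
  rw [← inv_mem_iff, mem_stabilizer_iff]
  funext p
  rw [col_smul, inv_inv]
  conv_lhs => rw [← pt_idx p, toM_smul_pt hy (idx_lt p)]
  show app col0 (idx _) = app col0 (idx p)
  rw [idx_pt (app_lt_of_isPerm (inM_isPerm hy) (idx_lt p)), h _ (idx_lt p)]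

theorem gK_le : gen gK ≤ GS ⊓ stabilizer M24 (decCol col0) := by
  apply gen_le
  intro g hg
  refine ⟨allL_fix_fam inM_gK (by decide +kernel) g hg, mem_stab_col (inM_gK g hg) ?_⟩
  have h : allL (fun g => allB (fun a => Nat.beq (app col0 (app g a)) (app col0 a)) 24) gK
      = true := by decide +kernel
  intro a ha
  exact beq_iff.mp (of_allB (allL_iff.mp h g hg) ha)

theorem orb_le {gens : List ℕ} (hg : ∀ g ∈ gens, inM g = true) (H : Subgroup M24)
    (hH : ∀ g ∈ gens, toM g ∈ H) {x0 : ℕ} (h0 : x0 < 2 ^ 120) (fuel : ℕ) :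
    orbSize (actsOf (fun g c => pmul c (pinv g)) gens) x0 fuel ≤ (orbit H (decCol x0)).ncard := by
  have e1 : encCol.act = fun g c => pmul c (pinv g) := by simp only [encCol]
  have e2 : encCol.dec = decCol := by simp only [encCol]
  have e3 : encCol.grp = toM := by simp only [encCol]
  rw [← e1, ← e2]
  exact encCol.orbSize_le (gens := gens) hg H (by rw [e3]; exact hH) (x0 := x0) h0 fuel

theorem gK_eq : gen gK = GS ⊓ stabilizer M24 (decCol col0) := by
  apply eq_of_le_of_card_ge gK_le
  have h1 := card_eq_ncard_orbit_mul GS (decCol col0)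
  have h2 := orb_le inM_gensS GS gensS_mem (show col0 < 2 ^ 120 by decide) 800
  rw [orb_col] at h2
  rw [card_stab_sextet sext0_mem] at h1
  rw [card_gK]
  by_contra hc
  have : 720 * 193 ≤ (orbit GS (decCol col0)).ncard *
    Nat.card ↥(GS ⊓ stabilizer M24 (decCol col0)) := Nat.mul_le_mul h2 (by omega)
  omega

theorem mem_gK {y : ℕ} (hy : inM y = true) (hS : toM y ∈ GS)
    (h : ∀ a < 24, app col0 (app y a) = app col0 a) : toM y ∈ gen gK := by
  rw [gK_eq]; exact ⟨hS, mem_stab_col hy h⟩

theorem mem_of_tree' {l : List ℕ} (hl : ∀ g ∈ l, inM g = true) {t : BT} {n y x0 : ℕ}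
    (h0 : inM x0 = true) (hs : OrbSpec (actsOf pmul l) x0 t n)
    (h : t.mem y = true) : inM y = true ∧ toM y ∈ orbit (gen l) (toM x0) := by
  have e1 : encMul.act = pmul := by simp only [encMul]
  have e2 : encMul.dec = toM := by simp only [encMul]
  have e3 : encMul.grp = toM := by simp only [encMul]
  have hr := (hs.mem_iff y).mp h
  rw [← e1] at hr
  have h1 : encMul.valid y := encMul.reach_valid (gens := l) hl (x0 := x0) h0 hr
  have h2 := encMul.reach_mem_orbit (gens := l) hl (gen l)
    (fun g hg => by rw [e3]; exact toM_mem_gen hg) (x0 := x0) h0 hr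
  rw [e2] at h2
  exact ⟨h1, h2⟩

theorem mem_of_tree {t : BT} {n y : ℕ} (hs : OrbSpec (actsOf pmul gF) pid t n)
    (h : t.mem y = true) : inM y = true ∧ toM y ∈ gen gF := by
  have := mem_of_tree' inM_gF inM_pid hs h
  rw [orbit_one_eq] at this
  exact this

theorem K_cases (bad : ℕ → Bool)
    (h : orb (actsOf pmul gF) pid 100 false (fun t _ =>
      orbAll (actsOf pmul gK) pid 250 (fun y => Bool.or (t.mem y) (bad y))) = true)
    {y : ℕ} (hy : inM y = true) (hx : toM y ∈ gen gK) : toM y ∈ gen gF ∨ bad y = true := by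
  obtain ⟨t, n, hs, ht⟩ := orb_true h
  obtain ⟨y', h1, h2, h3⟩ := forall_gen inM_gK ht hx
  obtain rfl := toM_inj h1 hy h2
  rw [Bool.or_eq_true] at h3
  exact h3.imp (fun h => (mem_of_tree hs h).2) id

/-- six involutions fixing two tetrads pointwise -/
def lB : List ℕ := [88564669826120100736879869426785281, 100220756582555373945364017112603649,
  89147023513860308921034189289610241, 112498419363478465068426720085990401,
  984202951082164080105044112956360736, 976448692869377735270425038196672544]

theorem lB_mem : ∀ f ∈ lB, inM f = true ∧ toM f ∈ gen gF := by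
  have h : orb (actsOf pmul gF) pid 100 false (fun t _ => allL (fun f => t.mem f) lB) = true := by
    decide +kernel
  obtain ⟨t, n, hs, ht⟩ := orb_true h
  exact fun f hf => mem_of_tree hs (allL_iff.mp ht f hf)

theorem chkB : allB (fun a => allB (fun x => Bool.or (Nat.beq (app col0 x) (app col0 a))
    (anyL (fun f => Bool.and (Nat.beq (app f a) a) (Bool.not (Nat.beq (app f x) x))) lB)) 24) 24
    = true := by decide +kernel

theorem chkB' : orb (actsOf pmul gF) pid 100 false (fun t _ =>
    orbAll (actsOf pmul gK) pid 250 (fun y => Bool.or (t.mem y)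
      (Bool.not (Nat.beq (pmul y 976448692869377735270425038196672544)
        (pmul 976448692869377735270425038196672544 y))))) = true := by decide +kernel

/-- the normal subgroup of order `64` is its own centralizer -/
theorem cen_F {g : M24} (hS : g ∈ GS) (h : ∀ f ∈ gen gF, g * f = f * g) : g ∈ gen gF := by
  obtain ⟨y, hy, rfl⟩ := exists_toM g
  have hK : toM y ∈ gen gK := by
    apply mem_gK hy hS
    intro a ha
    have hx := app_lt_of_isPerm (inM_isPerm hy) ha
    have h1 := of_allB (of_allB chkB ha) hx
    rw [Bool.or_eq_true, beq_iff] at h1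
    rcases h1 with h1 | h1
    · exact h1
    · obtain ⟨f, hf, h2⟩ := anyL_iff.mp h1
      rw [Bool.and_eq_true, beq_iff, Bool.not_eq_true', ← Bool.not_eq_true, beq_iff] at h2
      obtain ⟨i1, i2⟩ := lB_mem f hf
      have e := h _ i2
      rw [← toM_pmul hy i1, ← toM_pmul i1 hy] at e
      have e' := congrArg (fun u => app u a) (toM_inj (inM_pmul hy i1) (inM_pmul i1 hy) e)
      simp only [app_pmul _ _ ha, h2.1] at e'
      exact absurd e'.symm h2.2
  rcases K_cases _ chkB' hy hK with h1 | h1
  · exact h1
  · exfalso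
    have hf : (976448692869377735270425038196672544 : ℕ) ∈ gF := by simp [gF]
    have i1 := inM_gF _ hf
    have e := h _ (toM_mem_gen hf)
    rw [← toM_pmul hy i1, ← toM_pmul i1 hy] at e
    rw [toM_inj (inM_pmul hy i1) (inM_pmul i1 hy) e, Bool.not_eq_true', ← Bool.not_eq_true,
      beq_iff] at h1
    exact h1 rfl

end Cfsg.Agent.H71.RfVbA
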