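import Cfsg.Agent.H71.RfVbA

/-! Project RF: kernels in the cocode case. -/

set_option autoImplicit false
set_option linter.unusedVariables false

namespace Cfsg.Agent.H71.RfVbT

open Cfsg Subgroup Cfsg.Agent.H42 Cfsg.Agent.H18.Rf Cfsg.Agent.H35.RF Cfsg.Agent.H71.RfVbA
open Cfsg.Agent.H48 (IsWord)
open scoped commutatorElement Pointwise

universe u

/-- the mask of a pair -/
def pr (a b : ℕ) : ℕ := Nat.xor (Nat.pow 2 a) (Nat.pow 2 b)

/-- the sum of two pairs -/
def dd (x y a b : ℕ) : ℕ := Nat.xor (pr x y) (pr a b)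

theorem pr_lt {a b : ℕ} (ha : a < 24) (hb : b < 24) : pr a b < 2 ^ 24 :=
  xor_lt (Nat.pow_lt_pow_right (by norm_num) ha) (Nat.pow_lt_pow_right (by norm_num) hb)

theorem dd_lt {x y a b : ℕ} (hx : x < 24) (hy : y < 24) (ha : a < 24) (hb : b < 24) :
    dd x y a b < 2 ^ 24 := xor_lt (pr_lt hx hy) (pr_lt ha hb)

theorem smul_pr {y : ℕ} (hy : inM y = true) {a b : ℕ} (ha : a < 24) (hb : b < 24) :
    toM y • toSet (pr a b) = toSet (pr (app y a) (app y b)) := by
  have h1 := app_lt_of_isPerm (inM_isPerm hy) ha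
  have h2 := app_lt_of_isPerm (inM_isPerm hy) hb
  unfold pr
  rw [toSet_xor, toSet_xor, toSet_pow ha, toSet_pow hb, toSet_pow h1, toSet_pow h2,
    ← toM_smul_pt hy ha, ← toM_smul_pt hy hb, Subgroup.smul_def, smul_symmDiff,
    Finset.smul_finset_singleton, Finset.smul_finset_singleton]
  rfl

theorem even_sd {s t : Finset GolayPt} (hs : Even s.card) (ht : Even t.card) :
    Even (symmDiff s t).card := by
  have h1 := Finset.card_sdiff_add_card_inter s t
  have h2 := Finset.card_sdiff_add_card_inter t s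
  rw [Finset.inter_comm] at h2
  rw [symmDiff_def, Finset.sup_eq_union, Finset.card_union_of_disjoint disjoint_sdiff_sdiff]
  rw [Nat.even_iff] at *
  omega

theorem even_pr {a b : ℕ} (ha : a < 24) (hb : b < 24) : Even (toSet (pr a b)).card := by
  have h : allB (fun a => allB (fun b => Nat.beq (Nat.mod (pc (pr a b)) 2) 0) 24) 24 = true := by
    decide +kernel
  rw [card_toSet (pr_lt ha hb), Nat.even_iff]
  exact beq_iff.mp (of_allB (of_allB h ha) hb)

theorem even_dd {x y a b : ℕ} (hx : x < 24) (hy : y < 24) (ha : a < 24) (hb : b < 24) :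
    Even (toSet (dd x y a b)).card := by
  unfold dd
  rw [toSet_xor]
  exact even_sd (even_pr hx hy) (even_pr ha hb)

/-- the parity on a tetrad -/
def par (n i : ℕ) : ℕ := Nat.mod (pc (Nat.land n (fld 24 sext0 i))) 2

/-- the same parity on all tetrads -/
noncomputable def unif (n : ℕ) : Bool := allB (fun i => Nat.beq (par n i) (par n 0)) 6

theorem unif_iff {n : ℕ} (hn : n < 2 ^ 24) : (∀ t ∈ famDec 6 sext0, ∀ t' ∈ famDec 6 sext0,
    (toSet n ∩ t).card % 2 = (toSet n ∩ t').card % 2) ↔ unif n = true := by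
  have e : ∀ i, (toSet n ∩ toSet (fld 24 sext0 i)).card % 2 = par n i := fun i => by
    rw [card_toSet_inter _ hn]; rfl
  unfold unif
  rw [allB_iff]
  constructor
  · intro h i hi
    rw [beq_iff, ← e, ← e]
    exact h _ (mem_famDec.mpr ⟨i, hi, rfl⟩) _ (mem_famDec.mpr ⟨0, by norm_num, rfl⟩)
  · intro h t ht t' ht'
    obtain ⟨i, hi, rfl⟩ := mem_famDec.mp ht
    obtain ⟨j, hj, rfl⟩ := mem_famDec.mp ht'
    rw [e, e, beq_iff.mp (h i hi), beq_iff.mp (h j hj)]

/-- partners in the same tetrad and in other tetrads -/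
def nb1 : ℕ := 5447936571836922704151950562352193
def nb2 : ℕ := 58710221399406399563231394934489826
def ot1 : ℕ := 124785159692772966774647940209445987
def ot2 : ℕ := 336206299972130509955949835215741192

theorem chk0 {a : ℕ} (ha : a < 24) : app nb1 a < 24 ∧ app nb2 a < 24 ∧ app ot1 a < 24 ∧
    app ot2 a < 24 ∧ unif (pr a (app nb1 a)) = true ∧ unif (pr a (app nb2 a)) = true := by
  have h : allB (fun a => Bool.and (Nat.ble (app nb1 a) 23) (Bool.and (Nat.ble (app nb2 a) 23)
      (Bool.and (Nat.ble (app ot1 a) 23) (Bool.and (Nat.ble (app ot2 a) 23)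
      (Bool.and (unif (pr a (app nb1 a))) (unif (pr a (app nb2 a)))))))) 24 = true := by
    decide +kernel
  have := of_allB h ha
  simp only [Bool.and_eq_true, ble_iff] at this
  refine ⟨?_, ?_, ?_, ?_, this.2.2.2.2⟩ <;> omega

/-- in the code or in the coset of the tetrad -/
noncomputable def inZ (d : ℕ) : Bool := Bool.or (isCode d) (isCode (Nat.xor d 8388615))

theorem chkA : allB (fun a => allB (fun x => Bool.or (Nat.beq (app col0 x) (app col0 a))
    (allB (fun y => Bool.not (inZ (dd x y a (app nb1 a)))) 24)) 24) 24 = true := by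
  decide +kernel

theorem chkA' : orb (actsOf pmul gF) pid 100 false (fun t _ =>
    orbAll (actsOf pmul gK) pid 250 (fun y => Bool.or (t.mem y)
      (Bool.not (inZ (dd (app y 0) (app y (app nb1 0)) 0 (app nb1 0)))))) = true := by
  decide +kernel

theorem chkC : allB (fun a => allB (fun x => Bool.or (Nat.beq (app col0 x) (app col0 a))
    (Bool.or (allB (fun y => Bool.not (unif (dd x y a (app ot1 a)))) 24)
      (allB (fun y => Bool.not (unif (dd x y a (app ot2 a)))) 24))) 24) 24 = true := by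
  decide +kernel

theorem chkD : allB (fun a => allB (fun x => Bool.or (Nat.beq x a)
    (Bool.or (allB (fun y => Bool.not (isCode (dd x y a (app nb1 a)))) 24)
      (allB (fun y => Bool.not (isCode (dd x y a (app nb2 a)))) 24))) 24) 24 = true := by
  decide +kernel

theorem factA {y : ℕ} (hy : inM y = true) (hS : toM y ∈ GS) (h : ∀ a < 24, ∀ b < 24,
    unif (pr a b) = true → inZ (dd (app y a) (app y b) a b) = true) : toM y ∈ gen gF := by
  have hK : toM y ∈ gen gK := by
    apply mem_gK hy hS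
    intro a ha
    obtain ⟨c1, c2, c3, c4, c5, c6⟩ := chk0 ha
    have h1 := of_allB (of_allB chkA ha) (app_lt_of_isPerm (inM_isPerm hy) ha)
    rw [Bool.or_eq_true, beq_iff] at h1
    rcases h1 with h1 | h1
    · exact h1
    · have h2 := of_allB h1 (app_lt_of_isPerm (inM_isPerm hy) c1)
      rw [h a ha _ c1 c5] at h2
      exact absurd h2 (by simp)
  rcases K_cases _ chkA' hy hK with h1 | h1
  · exact h1
  · obtain ⟨c1, c2, c3, c4, c5, c6⟩ := chk0 (show 0 < 24 by norm_num)
    rw [h 0 (by norm_num) _ c1 c5] at h1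
    exact absurd h1 (by simp)

theorem factC {y : ℕ} (hy : inM y = true) (hS : toM y ∈ GS) (h : ∀ a < 24, ∀ b < 24,
    unif (dd (app y a) (app y b) a b) = true) : toM y ∈ gen gK := by
  apply mem_gK hy hS
  intro a ha
  obtain ⟨c1, c2, c3, c4, c5, c6⟩ := chk0 ha
  have h1 := of_allB (of_allB chkC ha) (app_lt_of_isPerm (inM_isPerm hy) ha)
  rw [Bool.or_eq_true, Bool.or_eq_true, beq_iff] at h1
  rcases h1 with h1 | h1 | h1
  · exact h1
  · have h2 := of_allB h1 (app_lt_of_isPerm (inM_isPerm hy) c3)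
    rw [h a ha _ c3] at h2
    exact absurd h2 (by simp)
  · have h2 := of_allB h1 (app_lt_of_isPerm (inM_isPerm hy) c4)
    rw [h a ha _ c4] at h2
    exact absurd h2 (by simp)

theorem factD {y : ℕ} (hy : inM y = true) (h : ∀ a < 24, ∀ b < 24,
    unif (pr a b) = true → isCode (dd (app y a) (app y b) a b) = true) : toM y = 1 := by
  rw [toM_eq_one_iff hy]
  apply eq_of_app_eq (isPerm_iff.mp (inM_isPerm hy)).1 (isPerm_iff.mp isPerm_pid).1
  intro a ha
  rw [app_pid ha]
  obtain ⟨c1, c2, c3, c4, c5, c6⟩ := chk0 ha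
  have h1 := of_allB (of_allB chkD ha) (app_lt_of_isPerm (inM_isPerm hy) ha)
  rw [Bool.or_eq_true, Bool.or_eq_true, beq_iff] at h1
  rcases h1 with h1 | h1 | h1
  · exact h1
  · have h2 := of_allB h1 (app_lt_of_isPerm (inM_isPerm hy) c1)
    rw [h a ha _ c1 c5] at h2
    exact absurd h2 (by simp)
  · have h2 := of_allB h1 (app_lt_of_isPerm (inM_isPerm hy) c2)
    rw [h a ha _ c2 c6] at h2
    exact absurd h2 (by simp)

theorem isWord_iff {n : ℕ} (hn : n < 2 ^ 24) : IsWord (toSet n) ↔ isCode n = true :=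
  toSet_mem_codeSets_iff hn

section

variable {G : Type u} [Group G] {V : Subgroup G} {ρ : NN V →* M24} {ψ : Finset GolayPt → G}

theorem comm_pr (st : St V ρ) (tod : Tod V ρ ψ) (n : NN V) {y : ℕ} (hy : inM y = true)
    (e : toM y = ρ n) {a b : ℕ} (ha : a < 24) (hb : b < 24) :
    ⁅(n : G), ψ (toSet (pr a b))⁆ = ψ (toSet (dd (app y a) (app y b) a b)) := by
  have h1 := app_lt_of_isPerm (inM_isPerm hy) ha
  have h2 := app_lt_of_isPerm (inM_isPerm hy) hb
  have h3 := st.el _ (tod.mem _ (even_pr ha hb))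
  unfold dd
  rw [commutatorElement_def, tod.act n _ (even_pr ha hb), ← e, smul_pr hy ha hb, toSet_xor,
    inv_eq_of_mul_eq_one_right h3]
  exact (tod.add _ _ (even_pr h1 h2) (even_pr ha hb)).symm

end

theorem vbT (hk : KitTStmt.{u}) : VbTStmt.{u} := by
  intro G _ _ V ρ ψ ω hz
  obtain ⟨st, tod, -, -⟩ := hz
  obtain ⟨k1, k2, k3, k4, -, -⟩ := hk G V ρ ψ st tod
  have hW : ∀ a < 24, ∀ b < 24, unif (pr a b) = true → ψ (toSet (pr a b)) ∈ WT ψ :=
    fun a ha b hb h => (k2 _ (even_pr ha hb)).mpr ((unif_iff (pr_lt ha hb)).mpr h)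
  refine ⟨?_, ?_, ?_, ?_⟩
  · rintro m ⟨hm, hc⟩
    obtain ⟨y, hy, e⟩ := exists_toM (ρ ⟨m, hm⟩)
    refine (st.ker ⟨m, hm⟩).mp ?_
    rw [← e]
    apply factD hy
    intro a ha b hb h
    have h1 := app_lt_of_isPerm (inM_isPerm hy) ha
    have h2 := app_lt_of_isPerm (inM_isPerm hy) hb
    rw [← isWord_iff (dd_lt h1 h2 ha hb), ← tod.ker _ (even_dd h1 h2 ha hb),
      ← comm_pr st tod ⟨m, hm⟩ hy e ha hb, commutatorElement_eq_one_iff_mul_comm]
    exact (mem_centralizer_iff.mp hc _ (hW a ha b hb h)).symm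
  · intro m hm h
    rw [k1] at hm
    obtain ⟨hn, hS⟩ := mem_pre.mp hm
    obtain ⟨y, hy, e⟩ := exists_toM (ρ ⟨m, hn⟩)
    refine mem_pre.mpr ⟨hn, ?_⟩
    rw [← e] at hS ⊢
    apply factA hy hS
    intro a ha b hb hu
    have h1 := app_lt_of_isPerm (inM_isPerm hy) ha
    have h2 := app_lt_of_isPerm (inM_isPerm hy) hb
    have h3 := h _ (hW a ha b hb hu)
    rw [show m = ((⟨m, hn⟩ : NN V) : G) from rfl, comm_pr st tod ⟨m, hn⟩ hy e ha hb,
      k3 _ (even_dd h1 h2 ha hb), t0, ← toSet_xor, isWord_iff (dd_lt h1 h2 ha hb),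
      isWord_iff (xor_lt (dd_lt h1 h2 ha hb) (by norm_num))] at h3
    unfold inZ
    rw [Bool.or_eq_true]
    exact h3
  · intro m hm h
    rw [k1] at hm
    obtain ⟨hn, hS⟩ := mem_pre.mp hm
    refine mem_pre.mpr ⟨hn, cen_F hS ?_⟩
    intro f hf
    obtain ⟨r, rfl⟩ := st.sur f
    have h1 := h r (coe_mem_pre.mpr hf)
    have h2 := (st.ker ⁅(⟨m, hn⟩ : NN V), r⁆).mpr h1
    rw [map_commutatorElement, commutatorElement_eq_one_iff_mul_comm] at h2
    exact h2
  · refine ⟨17, ?_⟩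
    have hle : MM V (ψ t0) ⊓ CM V (WT ψ) ≤ pre V ρ (gen gK) := by
      rintro m ⟨hm, -, h⟩
      rw [k1] at hm
      obtain ⟨hn, hS⟩ := mem_pre.mp hm
      obtain ⟨y, hy, e⟩ := exists_toM (ρ ⟨m, hn⟩)
      refine mem_pre.mpr ⟨hn, ?_⟩
      rw [← e] at hS ⊢
      apply factC hy hS
      intro a ha b hb
      have h1 := app_lt_of_isPerm (inM_isPerm hy) ha
      have h2 := app_lt_of_isPerm (inM_isPerm hy) hb
      have h3 : ⁅((⟨m, hn⟩ : NN V) : G), ψ (toSet (pr a b))⁆ ∈ WT ψ :=
        h _ (tod.mem _ (even_pr ha hb))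
      rw [comm_pr st tod ⟨m, hn⟩ hy e ha hb, k2 _ (even_dd h1 h2 ha hb),
        unif_iff (dd_lt h1 h2 ha hb)] at h3
      exact h3
    have := card_dvd_of_le hle
    rw [k4, card_gK] at this
    exact this

end Cfsg.Agent.H71.RfVbT
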